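import Cfsg.Agent.Lib.Classes.POmegaOutEven

/-!
Extensions of a small group by a cyclic group that split as direct products.
-/

set_option autoImplicit false
set_option linter.unusedSectionVars false

namespace CfsgLib.Classes.POmegaOutEven

variable {G A : Type*} [Group G] [Finite G] [Group A]

theorem inf_zpowers_eq_bot {f : ℕ} (φ : G →* A) (K : Subgroup G) (hKφ : ∀ k, k ∈ K ↔ φ k = 1) {Φ : A}
    (hΦ : orderOf Φ = f) {z : G} (hφz : φ z = Φ) (hzo : orderOf z = f) : K ⊓ Subgroup.zpowers z = ⊥ := by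
  rw [eq_bot_iff]
  rintro k ⟨hk, hk'⟩
  obtain ⟨i, rfl⟩ := Subgroup.mem_zpowers_iff.1 hk'
  rw [Subgroup.mem_bot, ← orderOf_dvd_iff_zpow_eq_one, hzo, ← hΦ, orderOf_dvd_iff_zpow_eq_one, ← hφz, ← map_zpow]
  exact (hKφ _).1 hk

/-- If the squares of a lift centralise the kernel of order eight and the quotient has odd order, it splits. -/
theorem nonempty_equiv_prod_of_sq_central {f : ℕ} (φ : G →* A) (K : Subgroup G) (hKφ : ∀ k, k ∈ K ↔ φ k = 1) {Φ : A}
    (hΦ : orderOf Φ = f) {x : G} (hφx : φ x = Φ) (hfodd : Odd f) (hK8 : Nat.card K = 8)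
    (h2c : ∀ k ∈ K, k * x ^ 2 = x ^ 2 * k) (hGK : Nat.card G = Nat.card K * f) :
    Nonempty (G ≃* K × Multiplicative (ZMod f)) := by
  have hdvd : ∀ z : G, φ z = Φ → f ∣ orderOf z := fun z hz => by
    have h := orderOf_map_dvd φ z
    rwa [hz, hΦ] at h
  have hxf : x ^ f ∈ K := by rw [hKφ, map_pow, hφx, ← hΦ, pow_orderOf_eq_one]
  set e := (f + 1) ^ 4 with he
  set z := x ^ e with hz
  have hφz : φ z = Φ := by
    rw [hz, map_pow, hφx, ← pow_mod_orderOf, hΦ, he, Nat.pow_mod, Nat.add_mod_left, ← Nat.pow_mod, one_pow]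
    rw [← hΦ, pow_mod_orderOf, pow_one]
  obtain ⟨w, hw⟩ := (hfodd.add_odd odd_one).two_dvd
  have hzc : ∀ k ∈ K, k * z = z * k := by
    intro k hk
    rw [hz, he, hw, show (2 * w) ^ 4 = 2 * (8 * w ^ 4) by ring, pow_mul]
    exact Commute.pow_right (h2c k hk) _
  have hzf : z ^ f = 1 := by
    rw [hz, ← pow_mul, mul_comm, pow_mul, he, hw, show (2 * w) ^ 4 = 8 * (2 * w ^ 4) by ring, pow_mul]
    have h8 : (x ^ f) ^ 8 = 1 := by
      have := pow_card_eq_one' (x := (⟨x ^ f, hxf⟩ : K))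
      rw [hK8] at this
      exact congrArg Subtype.val this
    rw [h8, one_pow]
  have hzo : orderOf z = f := Nat.dvd_antisymm (orderOf_dvd_of_pow_eq_one hzf) (hdvd z hφz)
  exact nonempty_prod_zpowers K hzo hzc (inf_zpowers_eq_bot φ K hKφ hΦ hφz hzo) hGK

/-- A central four group kernel: the extension is `C₂ × C₂f` unless the lift has order `f`. -/
theorem nonempty_equiv_two_two_mul {f : ℕ} (φ : G →* A) (K : Subgroup G) (hKφ : ∀ k, k ∈ K ↔ φ k = 1) {Φ : A}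
    (hΦ : orderOf Φ = f) {x : G} (hφx : φ x = Φ) (hf : 1 ≤ f) (hK4 : Nat.card K = 4)
    (hcen : ∀ k ∈ K, ∀ y : G, k * y = y * k) (hexp : ∀ k ∈ K, k * k = 1) (hxne : Even f → x ^ f ≠ 1)
    (hGK : Nat.card G = Nat.card K * f) : Nonempty (G ≃* Multiplicative (ZMod 2 × ZMod (2 * f))) := by
  obtain ⟨k₀, hk₀, hk₀1⟩ : ∃ k ∈ K, k ≠ 1 := by
    by_contra! h
    have hb : K = ⊥ := eq_bot_iff.2 fun k hk => h k hk
    rw [hb, Subgroup.card_bot] at hK4
    omega
  obtain ⟨y, hφy, hyf⟩ : ∃ y, φ y = Φ ∧ y ^ f ≠ 1 := by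
    rcases Nat.even_or_odd f with hfe | hfo
    · exact ⟨x, hφx, hxne hfe⟩
    · by_cases h : x ^ f = 1
      · refine ⟨x * k₀, by rw [map_mul, hφx, (hKφ k₀).1 hk₀, mul_one], ?_⟩
        rw [(show Commute x k₀ from (hcen k₀ hk₀ x).symm).mul_pow, h, one_mul]
        obtain ⟨w, hw⟩ := hfo
        rw [hw, pow_succ, pow_mul, sq, hexp k₀ hk₀, one_pow, one_mul]
        exact hk₀1
      · exact ⟨x, hφx, h⟩
  have hyK : y ^ f ∈ K := by rw [hKφ, map_pow, hφy, ← hΦ, pow_orderOf_eq_one]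
  have hyo : orderOf y = 2 * f := by
    have hd1 : f ∣ orderOf y := by
      have h := orderOf_map_dvd φ y
      rwa [hφy, hΦ] at h
    obtain ⟨k, hk⟩ := hd1
    have h2f : orderOf y ∣ f * 2 := orderOf_dvd_of_pow_eq_one (by rw [pow_mul, sq]; exact hexp _ hyK)
    rw [hk] at h2f
    rcases (Nat.dvd_prime Nat.prime_two).1 (Nat.dvd_of_mul_dvd_mul_left (by omega) h2f) with rfl | rfl
    · exact absurd (by rw [← mul_one f, ← hk, pow_orderOf_eq_one]) hyf
    · rw [hk, mul_comm]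
  obtain ⟨δ, hδ, hδ1, hδy⟩ : ∃ δ ∈ K, δ ≠ 1 ∧ δ ≠ y ^ f := by
    by_contra! h
    have hle : Nat.card K ≤ 2 := by
      let w : Fin 2 → K := fun i => ⟨(y ^ f) ^ (i : ℕ), pow_mem hyK _⟩
      have hw : Function.Surjective w := by
        rintro ⟨k, hk⟩
        by_cases h1 : k = 1
        · exact ⟨0, Subtype.ext (by simp [w, h1])⟩
        · exact ⟨1, Subtype.ext (by simp [w, h k hk h1])⟩
      simpa using Nat.card_le_card_of_surjective w hw
    omega
  have hδo : orderOf δ = 2 := by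
    haveI : Fact (Nat.Prime 2) := ⟨Nat.prime_two⟩
    exact orderOf_eq_prime (by rw [sq]; exact hexp δ hδ) hδ1
  have hinf : Subgroup.zpowers δ ⊓ Subgroup.zpowers y = ⊥ := by
    rw [eq_bot_iff]
    rintro k ⟨hk, hk'⟩
    have hkK : k ∈ K := (Subgroup.zpowers_le.2 hδ) hk
    obtain ⟨i, rfl⟩ := Subgroup.mem_zpowers_iff.1 hk'
    have hfi : (f : ℤ) ∣ i := by
      rw [← hΦ, orderOf_dvd_iff_zpow_eq_one, ← hφy, ← map_zpow]
      exact (hKφ _).1 hkK
    obtain ⟨l, rfl⟩ := hfi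
    rw [Subgroup.mem_bot, zpow_mul, zpow_natCast]
    obtain ⟨u, hu⟩ := Subgroup.mem_zpowers_iff.1 hk
    rw [zpow_mul, zpow_natCast] at hu
    have hye : y ^ f * y ^ f = 1 := hexp _ hyK
    rcases Int.even_or_odd l with ⟨j, hj⟩ | ⟨j, hj⟩
    · rw [hj, ← two_mul, zpow_mul, zpow_two, hye, one_zpow]
    · exfalso
      rw [hj, zpow_add_one, zpow_mul, zpow_two, hye, one_zpow, one_mul] at hu
      rcases Int.even_or_odd u with ⟨v, hv⟩ | ⟨v, hv⟩
      · rw [hv, ← two_mul, zpow_mul, zpow_two, hexp δ hδ, one_zpow] at hu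
        exact hyf hu.symm
      · rw [hv, zpow_add_one, zpow_mul, zpow_two, hexp δ hδ, one_zpow, one_mul] at hu
        exact hδy hu
  obtain ⟨E⟩ := nonempty_prod_zpowers (Subgroup.zpowers δ) hyo
    (fun k hk => hcen k ((Subgroup.zpowers_le.2 hδ) hk) y) hinf
    (by rw [hGK, hK4, Nat.card_zpowers, hδo]; ring)
  let eδ : Subgroup.zpowers δ ≃* Multiplicative (ZMod 2) :=
    mulEquivOfCyclicCardEq (by rw [Nat.card_zpowers, hδo]; exact (Nat.card_zmod 2).symm)
  exact ⟨(E.trans (eδ.prodCongr (MulEquiv.refl _))).trans (MulEquiv.prodMultiplicative _ _).symm⟩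

end CfsgLib.Classes.POmegaOutEven
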