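import Mathlib

/-!
Nilpotent matrices with a cyclic vector (a single Jordan block).
-/

set_option autoImplicit false

namespace CfsgLib.Classes

open Matrix

variable {F : Type*} [Field F] {ι : Type*} [Fintype ι] [DecidableEq ι]

/-- The rank hypothesis of a single Jordan block gives a cyclic vector. -/
theorem exists_cyclic_vector (a : Matrix ι ι F) (hι : 0 < Fintype.card ι)
    (hrank : a.rank = Fintype.card ι - 1) :
    ∃ v, (a ^ (Fintype.card ι - 1)) *ᵥ v ≠ 0 := by
  have hker : ∀ j, Module.finrank F (LinearMap.ker (a ^ j).mulVecLin) ≤ j := by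
    intro j
    induction j with
    | zero => simp
    | succ j ih =>
      have h1 : Module.finrank F (LinearMap.ker a.mulVecLin) ≤ 1 := by
        have h2 := LinearMap.finrank_range_add_finrank_ker a.mulVecLin
        rw [Module.finrank_fintype_fun_eq_card] at h2
        rw [Matrix.rank] at hrank
        omega
      set W := LinearMap.ker (a ^ (j + 1)).mulVecLin
      have h := LinearMap.finrank_range_add_finrank_ker ((a ^ j).mulVecLin.comp W.subtype)
      have hr : Module.finrank F (LinearMap.range ((a ^ j).mulVecLin.comp W.subtype)) ≤ 1 := by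
        refine le_trans (Submodule.finrank_mono ?_) h1
        rintro _ ⟨w, rfl⟩
        have hw : (a ^ (j + 1)) *ᵥ (w : ι → F) = 0 := w.2
        rw [pow_succ', ← Matrix.mulVec_mulVec] at hw
        exact LinearMap.mem_ker.mpr hw
      have hk : Module.finrank F (LinearMap.ker ((a ^ j).mulVecLin.comp W.subtype)) ≤ j := by
        rw [LinearMap.ker_comp, ← Submodule.finrank_map_subtype_eq]
        exact le_trans (Submodule.finrank_mono (by rw [Submodule.map_comap_subtype]; exact inf_le_right)) ih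
      omega
  by_contra h
  push Not at h
  have h2 := hker (Fintype.card ι - 1)
  rw [LinearMap.ker_eq_top.mpr (LinearMap.ext h), finrank_top, Module.finrank_fintype_fun_eq_card] at h2
  omega

/-- The polynomial expression `∑ c_i a^i` of degree less than the dimension. -/
noncomputable def powSum (a : Matrix ι ι F) : (Fin (Fintype.card ι) → F) →ₗ[F] Matrix ι ι F :=
  Fintype.linearCombination F fun i => a ^ (i : ℕ)

theorem powSum_apply (a : Matrix ι ι F) (c : Fin (Fintype.card ι) → F) :
    powSum a c = ∑ i, c i • a ^ (i : ℕ) := Fintype.linearCombination_apply ..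

theorem commute_powSum (a : Matrix ι ι F) (X : Matrix ι ι F) (h : Commute X a) (c : Fin (Fintype.card ι) → F) :
    Commute X (powSum a c) := by
  rw [powSum_apply]
  exact Commute.sum_right _ _ _ fun i _ => (h.pow_right _).smul_right _

/-- `c ↦ (∑ c_i a^i) v` is bijective for a cyclic vector `v`. -/
theorem powSum_mulVec_bijective {a : Matrix ι ι F} (hnil : a ^ Fintype.card ι = 0) {v : ι → F}
    (hv : (a ^ (Fintype.card ι - 1)) *ᵥ v ≠ 0) : Function.Bijective fun c => powSum a c *ᵥ v := by
  let L : (Fin (Fintype.card ι) → F) →ₗ[F] (ι → F) :=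
    (Matrix.mulVecBilin F F).flip v ∘ₗ powSum a
  have hinj : Function.Injective L := (injective_iff_map_eq_zero L).mpr fun c hc => by
    classical
    by_contra hne
    obtain ⟨i₀, hi₀, hmin⟩ := Finset.exists_min_image (Finset.univ.filter fun i => c i ≠ 0)
      (fun i : Fin (Fintype.card ι) => (i : ℕ)) (by
        obtain ⟨i, hi⟩ := Function.ne_iff.mp hne
        exact ⟨i, Finset.mem_filter.mpr ⟨Finset.mem_univ _, hi⟩⟩)
    have h := congrArg (fun w => (a ^ (Fintype.card ι - 1 - (i₀ : ℕ))) *ᵥ w) hc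
    simp only [L, LinearMap.comp_apply, LinearMap.flip_apply, Matrix.mulVecBilin_apply, Matrix.mulVec_zero] at h
    rw [powSum_apply, Matrix.sum_mulVec, Matrix.mulVec_sum, Finset.sum_eq_single i₀] at h
    · rw [Matrix.smul_mulVec, Matrix.mulVec_smul, Matrix.mulVec_mulVec, ← pow_add,
        Nat.sub_add_cancel (Nat.le_sub_one_of_lt i₀.isLt)] at h
      rcases smul_eq_zero.mp h with h' | h'
      · exact (Finset.mem_filter.mp hi₀).2 h'
      · exact hv h'
    · intro i _ hi
      by_cases hci : c i = 0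
      · simp [hci]
      · have hle := hmin i (Finset.mem_filter.mpr ⟨Finset.mem_univ _, hci⟩)
        have hne' : (i₀ : ℕ) ≠ i := fun h' => hi (Fin.ext h'.symm)
        have := i₀.isLt
        rw [Matrix.smul_mulVec, Matrix.mulVec_smul, Matrix.mulVec_mulVec, ← pow_add,
          pow_eq_zero_of_le (by omega) hnil, Matrix.zero_mulVec, smul_zero]
    · simp
  have := (LinearMap.injective_iff_surjective_of_finrank_eq_finrank (f := L) (by simp)).mp hinj
  exact ⟨hinj, this⟩

theorem powSum_injective {a : Matrix ι ι F} (hnil : a ^ Fintype.card ι = 0) {v : ι → F}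
    (hv : (a ^ (Fintype.card ι - 1)) *ᵥ v ≠ 0) : Function.Injective (powSum a) := fun c c' h =>
  (powSum_mulVec_bijective hnil hv).1 (congrArg (· *ᵥ v) h)

/-- The commutant of a single Jordan block consists of its polynomials. -/
theorem exists_powSum_eq {a : Matrix ι ι F} (hnil : a ^ Fintype.card ι = 0) {v : ι → F}
    (hv : (a ^ (Fintype.card ι - 1)) *ᵥ v ≠ 0) {X : Matrix ι ι F} (hX : Commute X a) :
    ∃ c, powSum a c = X := by
  obtain ⟨c, hc⟩ := (powSum_mulVec_bijective hnil hv).2 (X *ᵥ v)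
  refine ⟨c, Matrix.ext_of_mulVec_single fun k => ?_⟩
  obtain ⟨d, hd⟩ := (powSum_mulVec_bijective hnil hv).2 (Pi.single k 1)
  simp only at hc hd
  rw [← hd, Matrix.mulVec_mulVec, Matrix.mulVec_mulVec, (commute_powSum a X hX d).eq,
    (commute_powSum a (powSum a c) (commute_powSum a a (Commute.refl a) c).symm d).eq,
    ← Matrix.mulVec_mulVec, hc, Matrix.mulVec_mulVec]

/-- Elements commuting with a single Jordan block commute with each other. -/
theorem commute_of_commute {a : Matrix ι ι F} (hnil : a ^ Fintype.card ι = 0) {v : ι → F}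
    (hv : (a ^ (Fintype.card ι - 1)) *ᵥ v ≠ 0) {X Y : Matrix ι ι F} (hX : Commute X a) (hY : Commute Y a) :
    Commute X Y := by
  obtain ⟨c, rfl⟩ := exists_powSum_eq hnil hv hY
  exact commute_powSum a X hX c

/-- On the fixed line a polynomial in `a` acts by its constant coefficient. -/
theorem powSum_mulVec_top {a : Matrix ι ι F} (hnil : a ^ Fintype.card ι = 0) (h0 : 0 < Fintype.card ι)
    (v : ι → F) (c : Fin (Fintype.card ι) → F) :
    powSum a c *ᵥ ((a ^ (Fintype.card ι - 1)) *ᵥ v) = c ⟨0, h0⟩ • ((a ^ (Fintype.card ι - 1)) *ᵥ v) := by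
  rw [powSum_apply, Matrix.sum_mulVec, Finset.sum_eq_single (⟨0, h0⟩ : Fin (Fintype.card ι))]
  · simp [Matrix.smul_mulVec]
  · intro i _ hi
    have : (i : ℕ) ≠ 0 := fun h => hi (Fin.ext h)
    rw [Matrix.smul_mulVec, Matrix.mulVec_mulVec, ← pow_add, pow_eq_zero_of_le (by omega) hnil,
      Matrix.zero_mulVec, smul_zero]
  · simp

/-- A polynomial in `a` is invertible exactly when its constant coefficient is non-zero. -/
theorem isUnit_powSum_iff {a : Matrix ι ι F} (hnil : a ^ Fintype.card ι = 0) (h0 : 0 < Fintype.card ι)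
    {v : ι → F} (hv : (a ^ (Fintype.card ι - 1)) *ᵥ v ≠ 0) (c : Fin (Fintype.card ι) → F) :
    IsUnit (powSum a c) ↔ c ⟨0, h0⟩ ≠ 0 := by
  constructor
  · intro hu hc
    refine hv (Matrix.mulVec_injective_of_isUnit hu ?_)
    show powSum a c *ᵥ _ = powSum a c *ᵥ 0
    rw [powSum_mulVec_top hnil h0, hc, zero_smul, Matrix.mulVec_zero]
  · intro hc
    have hN : IsNilpotent (powSum a c - c ⟨0, h0⟩ • (1 : Matrix ι ι F)) := by
      have : powSum a c - c ⟨0, h0⟩ • (1 : Matrix ι ι F) =
          a * ∑ i ∈ Finset.univ.erase (⟨0, h0⟩ : Fin (Fintype.card ι)), c i • a ^ ((i : ℕ) - 1) := by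
        rw [powSum_apply, ← Finset.add_sum_erase _ _ (Finset.mem_univ (⟨0, h0⟩ : Fin (Fintype.card ι))),
          Finset.mul_sum]
        simp only [pow_zero, add_sub_cancel_left]
        refine Finset.sum_congr rfl fun i hi => ?_
        have : (i : ℕ) ≠ 0 := fun h => (Finset.mem_erase.mp hi).1 (Fin.ext h)
        rw [mul_smul_comm, ← pow_succ', Nat.sub_add_cancel (Nat.pos_of_ne_zero this)]
      rw [this]
      exact Commute.isNilpotent_mul_right
        (Commute.sum_right _ _ _ fun i _ => ((Commute.refl a).pow_right _).smul_right _) ⟨_, hnil⟩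
    have hu : IsUnit (c ⟨0, h0⟩ • (1 : Matrix ι ι F)) := by
      rw [← Algebra.algebraMap_eq_smul_one]
      exact (isUnit_iff_ne_zero.mpr hc).map _
    have := hN.isUnit_add_right_of_commute hu ((Commute.one_right _).smul_right _)
    rwa [sub_add_cancel] at this

/-- Two single Jordan blocks are similar. -/
theorem exists_conj_of_cyclic {a b : Matrix ι ι F} (ha : a ^ Fintype.card ι = 0) (hb : b ^ Fintype.card ι = 0)
    {v w : ι → F} (hv : (a ^ (Fintype.card ι - 1)) *ᵥ v ≠ 0) (hw : (b ^ (Fintype.card ι - 1)) *ᵥ w ≠ 0) :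
    ∃ g : (Matrix ι ι F)ˣ, (g : Matrix ι ι F) * a = b * g := by
  let A : (Fin (Fintype.card ι) → F) ≃ₗ[F] (ι → F) :=
    LinearEquiv.ofBijective ((Matrix.mulVecBilin F F).flip v ∘ₗ powSum a) (powSum_mulVec_bijective ha hv)
  let B : (Fin (Fintype.card ι) → F) ≃ₗ[F] (ι → F) :=
    LinearEquiv.ofBijective ((Matrix.mulVecBilin F F).flip w ∘ₗ powSum b) (powSum_mulVec_bijective hb hw)
  let G := A.symm.trans B
  have key : ∀ i : ℕ, G ((a ^ i) *ᵥ v) = (b ^ i) *ᵥ w := by
    intro i
    by_cases hi : i < Fintype.card ι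
    · have hA : A (Pi.single ⟨i, hi⟩ 1) = (a ^ i) *ᵥ v := by
        show powSum a (Pi.single ⟨i, hi⟩ 1) *ᵥ v = _
        rw [powSum_apply, Finset.sum_eq_single (⟨i, hi⟩ : Fin (Fintype.card ι))] <;> simp +contextual
      rw [← hA]
      show B (A.symm (A (Pi.single ⟨i, hi⟩ 1))) = _
      rw [A.symm_apply_apply]
      show powSum b (Pi.single ⟨i, hi⟩ 1) *ᵥ w = _
      rw [powSum_apply, Finset.sum_eq_single (⟨i, hi⟩ : Fin (Fintype.card ι))] <;> simp +contextual
    · rw [pow_eq_zero_of_le (not_lt.mp hi) ha, pow_eq_zero_of_le (not_lt.mp hi) hb, Matrix.zero_mulVec,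
        Matrix.zero_mulVec, map_zero]
  have hcomp : (LinearMap.toMatrix' G.toLinearMap) * (LinearMap.toMatrix' G.symm.toLinearMap) = 1 := by
    rw [← LinearMap.toMatrix'_comp, LinearEquiv.comp_symm]
    exact LinearMap.toMatrix'_id
  refine ⟨⟨_, _, hcomp, mul_eq_one_comm.mp hcomp⟩, Matrix.ext_of_mulVec_single fun k => ?_⟩
  obtain ⟨c, hc⟩ := (powSum_mulVec_bijective ha hv).2 (Pi.single k 1)
  simp only at hc
  show (LinearMap.toMatrix' G.toLinearMap * a) *ᵥ _ = (b * LinearMap.toMatrix' G.toLinearMap) *ᵥ _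
  rw [← hc, ← Matrix.mulVec_mulVec (M := LinearMap.toMatrix' G.toLinearMap), ← Matrix.mulVec_mulVec (M := b),
    LinearMap.toMatrix'_mulVec, LinearMap.toMatrix'_mulVec, powSum_apply]
  simp only [Matrix.sum_mulVec, Matrix.mulVec_sum, Matrix.smul_mulVec, Matrix.mulVec_smul, LinearEquiv.coe_coe,
    map_sum, map_smul, key, Matrix.mulVec_mulVec, ← pow_succ']

end CfsgLib.Classes
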