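import Mathlib

/-!
Multisets on `ZMod r` invariant under multiplication by a unit.
-/

set_option autoImplicit false
set_option linter.style.haveILetI false

namespace CfsgLib.Classes.OrbitCount

/-- Multisets of a given size as functions. -/
noncomputable def symEquivFun (α : Type*) [Fintype α] [DecidableEq α] (n : ℕ) :
    Sym α n ≃ {f : α → ℕ // ∑ a, f a = n} :=
  Equiv.subtypeEquiv (Multiset.toFinsupp.toEquiv.trans Finsupp.equivFunOnFinite) fun m => by
    rw [show ∑ a, (Multiset.toFinsupp.toEquiv.trans Finsupp.equivFunOnFinite) m a = ∑ a, m.count a from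
      Finset.sum_congr rfl fun a _ => by simp, Multiset.sum_count_eq_card fun a _ => Finset.mem_univ a]

lemma symEquivFun_apply {α : Type*} [Fintype α] [DecidableEq α] {n : ℕ} (m : Sym α n) (a : α) :
    (symEquivFun α n m).1 a = (m : Multiset α).count a := rfl

/-- Multisets of size `n` on `ZMod r` invariant under a unit of order `d`. -/
theorem card_invariant {r : ℕ} [Fact r.Prime] (u : (ZMod r)ˣ) (n : ℕ) :
    Nat.card {m : Sym (ZMod r) n // (m : Multiset (ZMod r)).map ((u : ZMod r) * ·) = m} =
      Nat.choose (n / orderOf u + (r - 1) / orderOf u) ((r - 1) / orderOf u) := by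
  classical
  set H := Subgroup.zpowers u
  set d := orderOf u with hd
  have hd0 : 0 < d := orderOf_pos u
  let Orb := (ZMod r)ˣ ⧸ H
  have ht : Nat.card Orb = (r - 1) / d := by
    have h := Subgroup.card_eq_card_quotient_mul_card_subgroup H
    rw [Nat.card_eq_fintype_card, ZMod.card_units, Nat.card_zpowers] at h
    rw [h, Nat.mul_div_cancel _ hd0]
  haveI : Fintype Orb := Fintype.ofFinite _
  rw [Nat.card_eq_fintype_card] at ht
  -- invariance in terms of counts
  have hinv : ∀ m : Sym (ZMod r) n, (m : Multiset (ZMod r)).map ((u : ZMod r) * ·) = m ↔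
      ∀ x, (symEquivFun (ZMod r) n m).1 ((u : ZMod r) * x) = (symEquivFun (ZMod r) n m).1 x := by
    intro m
    rw [Multiset.ext]
    simp only [symEquivFun_apply]
    constructor
    · intro h x
      rw [← h ((u : ZMod r) * x), Multiset.count_map_eq_count' _ _ (mul_right_injective₀ u.ne_zero)]
    · intro h x
      obtain ⟨y, rfl⟩ : ∃ y, (u : ZMod r) * y = x := ⟨(u⁻¹ : (ZMod r)ˣ) * x, Units.mul_inv_cancel_left u x⟩
      rw [Multiset.count_map_eq_count' _ _ (mul_right_injective₀ u.ne_zero), h y]
  rw [Nat.card_congr (Equiv.subtypeEquiv (symEquivFun (ZMod r) n)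
    (q := fun f => ∀ x, f.1 ((u : ZMod r) * x) = f.1 x) hinv)]
  -- sums over the units
  have hsum : ∀ a : ZMod r → ℕ, ∀ c : Orb → ℕ, (∀ x : (ZMod r)ˣ, a x = c x) →
      ∑ x, a x = a 0 + d * ∑ o, c o := by
    intro a c h
    have h1 : ∑ x ∈ Finset.univ.erase (0 : ZMod r), a x = ∑ x : (ZMod r)ˣ, a x := by
      symm
      refine Finset.sum_bij (fun (x : (ZMod r)ˣ) _ => (x : ZMod r)) (fun x _ => by simp)
        (fun x _ y _ hxy => Units.ext hxy) (fun x hx => ⟨Units.mk0 x (Finset.ne_of_mem_erase hx), by simp, rfl⟩)
        (fun x _ => rfl)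
    rw [← Finset.add_sum_erase _ _ (Finset.mem_univ (0 : ZMod r)), h1, Finset.mul_sum,
      ← Fintype.sum_fiberwise (g := (QuotientGroup.mk : (ZMod r)ˣ → Orb))]
    congr 1
    refine Finset.sum_congr rfl fun o _ => ?_
    rw [Finset.sum_congr rfl (g := fun _ => c o) (fun x _ => by rw [h, x.2]), Finset.sum_const, smul_eq_mul,
      Finset.card_univ]
    congr 1
    have h2 := QuotientGroup.card_preimage_mk H {o}
    have h3 : Nat.card ({o} : Set Orb) = 1 := by simp
    rw [Nat.card_zpowers, h3, mul_one] at h2
    rw [← Nat.card_eq_fintype_card, hd, ← h2]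
    rfl
  have hconst : ∀ a : ZMod r → ℕ, (∀ x, a ((u : ZMod r) * x) = a x) → ∀ x : (ZMod r)ˣ,
      a x = a ((x : Orb).out : (ZMod r)ˣ) := by
    intro a ha x
    obtain ⟨h, hh⟩ := QuotientGroup.mk_out_eq_mul H x
    have hpow : ∀ (k : ℕ) (y : ZMod r), a (((u ^ k : (ZMod r)ˣ) : ZMod r) * y) = a y := by
      intro k
      induction k with
      | zero => simp
      | succ k ih => intro y; rw [pow_succ', Units.val_mul, mul_assoc, ha, ih]
    obtain ⟨k, hk⟩ := mem_powers_iff_mem_zpowers.2 h.2
    simp only at hk
    rw [hh, ← hk, Units.val_mul, mul_comm, hpow]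
  let e1 : {f : {f : ZMod r → ℕ // ∑ a, f a = n} // ∀ x, f.1 ((u : ZMod r) * x) = f.1 x} ≃
      {c : Orb → ℕ // d * ∑ o, c o ≤ n} :=
    { toFun := fun f => ⟨fun o => f.1.1 (o.out : (ZMod r)ˣ), by
        have := hsum f.1.1 (fun o => f.1.1 (o.out : (ZMod r)ˣ)) (fun x => hconst _ f.2 x)
        rw [f.1.2] at this
        show d * ∑ o : Orb, f.1.1 (o.out : (ZMod r)ˣ) ≤ n
        omega⟩
      invFun := fun c => ⟨⟨fun x => if hx : x = 0 then n - d * ∑ o, c.1 o else c.1 (Units.mk0 x hx : Orb), by
          rw [hsum _ c.1 (fun x => by rw [dif_neg x.ne_zero, Units.mk0_val]), dif_pos rfl]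
          have := c.2
          omega⟩, fun x => by
          by_cases hx : x = 0
          · subst hx; simp
          · simp only [dif_neg hx, dif_neg (mul_ne_zero u.ne_zero hx)]
            congr 1
            rw [show Units.mk0 ((u : ZMod r) * x) (mul_ne_zero u.ne_zero hx) = Units.mk0 x hx * u from
              Units.ext (mul_comm _ _)]
            exact congrArg c.1 (QuotientGroup.mk_mul_of_mem _ (Subgroup.mem_zpowers u))⟩
      left_inv := fun f => by
        apply Subtype.ext; apply Subtype.ext
        funext x
        by_cases hx : x = 0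
        · subst hx
          have := hsum f.1.1 (fun o => f.1.1 (o.out : (ZMod r)ˣ)) (fun x => hconst _ f.2 x)
          rw [f.1.2] at this
          simp only [dif_pos]
          omega
        · simp only [dif_neg hx]
          exact (hconst _ f.2 (Units.mk0 x hx)).symm
      right_inv := fun c => by
        apply Subtype.ext
        funext o
        simp only [dif_neg (Units.ne_zero _), Units.mk0_val, QuotientGroup.out_eq'] }
  let e2 : {c : Orb → ℕ // d * ∑ o, c o ≤ n} ≃ {f : Option Orb → ℕ // ∑ o, f o = n / d} :=
    { toFun := fun c => ⟨fun o => o.elim (n / d - ∑ o, c.1 o) c.1, by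
        rw [Fintype.sum_option]
        simp only [Option.elim]
        have : ∑ o, c.1 o ≤ n / d := by
          rw [Nat.le_div_iff_mul_le hd0, mul_comm]
          exact c.2
        omega⟩
      invFun := fun f => ⟨fun o => f.1 (some o), by
        have := f.2
        rw [Fintype.sum_option] at this
        show d * ∑ o, f.1 (some o) ≤ n
        have h4 : ∑ o, f.1 (some o) ≤ n / d := by omega
        calc d * ∑ o, f.1 (some o) ≤ d * (n / d) := Nat.mul_le_mul_left d h4
          _ ≤ n := Nat.mul_div_le n d⟩
      left_inv := fun c => by ext o; rfl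
      right_inv := fun f => by
        apply Subtype.ext
        funext o
        have := f.2
        rw [Fintype.sum_option] at this
        cases o with
        | none => simp only [Option.elim]; omega
        | some o => rfl }
  rw [Nat.card_congr ((e1.trans e2).trans (symEquivFun (Option Orb) (n / d)).symm), Nat.card_eq_fintype_card,
    Sym.card_sym_eq_choose, Fintype.card_option, ht, show (r - 1) / d + 1 + n / d - 1 = n / d + (r - 1) / d by
      generalize (r - 1) / d = A
      generalize n / d = B
      omega,
    Nat.choose_symm_add]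

end CfsgLib.Classes.OrbitCount
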