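import Mathlib
import Cfsg.Agent.S2588
import Cfsg.Agent.Lib.Classes.UnipotentGU
import Cfsg.Agent.Lib.Classes.InvolutionCount
import Cfsg.Agent.Lib.Classes.OrbitMultisets
import Cfsg.Agent.Lib.Omega.SLConj
import Cfsg.Agent.Lib.SemisimpleClasses.Count

/-!
Classes of elements of odd prime order in the finite unitary groups, by their eigenvalue exponents.
-/

set_option autoImplicit false
set_option linter.style.haveILetI false

namespace CfsgLib.Classes.GUPrime

open Polynomial Matrix

section Exponents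

variable {L : Type*} [Field L] {r n : ℕ} (ζ : L)

/-- The polynomial with the given multiset of exponents of `ζ` as roots. -/
noncomputable def expPoly (M : Multiset (ZMod r)) : L[X] := (M.map fun a => X - C (ζ ^ a.val)).prod

variable {ζ}

lemma zeta_pow_val_inj [Fact r.Prime] (hζ : IsPrimitiveRoot ζ r) :
    Function.Injective fun a : ZMod r => ζ ^ a.val :=
  fun a b h => ZMod.val_injective r (hζ.pow_inj a.val_lt b.val_lt h)

lemma expPoly_roots (M : Multiset (ZMod r)) : (expPoly ζ M).roots = M.map fun a => ζ ^ a.val := by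
  rw [expPoly, ← Polynomial.roots_multiset_prod_X_sub_C (M.map fun a => ζ ^ a.val), Multiset.map_map]
  rfl

lemma expPoly_injective [Fact r.Prime] (hζ : IsPrimitiveRoot ζ r) :
    Function.Injective (expPoly ζ : Multiset (ZMod r) → L[X]) := fun M M' h => by
  have h1 := congrArg Polynomial.roots h
  rw [expPoly_roots, expPoly_roots] at h1
  exact Multiset.map_injective (zeta_pow_val_inj hζ) h1

lemma expPoly_monic (M : Multiset (ZMod r)) : (expPoly ζ M).Monic :=
  Polynomial.monic_multiset_prod_of_monic _ _ fun _ _ => monic_X_sub_C _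

lemma expPoly_natDegree (M : Multiset (ZMod r)) : (expPoly ζ M).natDegree = M.card := by
  rw [expPoly, ← Multiset.card_map (fun a : ZMod r => ζ ^ a.val) M,
    ← Polynomial.natDegree_multiset_prod_X_sub_C_eq_card (M.map fun a => ζ ^ a.val), Multiset.map_map]
  rfl

lemma zeta_pow_val_mul [Fact r.Prime] (hζ : IsPrimitiveRoot ζ r) (a : ZMod r) (k : ℕ) :
    (ζ ^ a.val) ^ k = ζ ^ ((k : ZMod r) * a).val := by
  have h := hζ.pow_eq_one
  rw [← pow_mul, ← pow_mod_orderOf, ← hζ.eq_orderOf, ZMod.val_mul, ZMod.val_natCast, Nat.mod_mul_mod, mul_comm]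

/-- The eigenbasis characterises the characteristic polynomial. -/
lemma charpoly_of_eigenbasis {ι : Type*} [Fintype ι] [DecidableEq ι] (A : Matrix ι ι L)
    (b : Module.Basis ι L (ι → L)) (d : ι → L) (h : ∀ i, A *ᵥ b i = d i • b i) :
    A.charpoly = ∏ i, (X - C (d i)) := by
  rw [← Matrix.charpoly_toLin', ← LinearMap.charpoly_toMatrix (Matrix.toLin' A) b]
  have : LinearMap.toMatrix b b (Matrix.toLin' A) = Matrix.diagonal d := by
    ext i j
    rw [LinearMap.toMatrix_apply, Matrix.toLin'_apply, h, map_smul, Module.Basis.repr_self,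
      Finsupp.smul_single, smul_eq_mul, mul_one, Finsupp.single_apply, Matrix.diagonal_apply]
    by_cases hij : i = j
    · subst hij; simp
    · simp [hij, Ne.symm hij]
  rw [this, Matrix.charpoly_diagonal]

/-- An eigenbasis of a matrix of order dividing `N`, the field having the `N`-th roots of unity. -/
lemma exists_eigen {N : ℕ} (hN : 0 < N) {w : L} (hw : IsPrimitiveRoot w N) (A : Matrix (Fin n) (Fin n) L)
    (hA : A ^ N = 1) :
    ∃ (b : Module.Basis (Fin n) L (Fin n → L)) (d : Fin n → L),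
      (∀ i, d i ^ N = 1) ∧ ∀ i, A *ᵥ b i = d i • b i := by
  obtain ⟨b, d, hd, hb⟩ := CfsgLib.Omega.exists_eigenbasis A (nthRootsFinset N (1 : L)) (by
    rw [← Polynomial.X_pow_sub_one_eq_prod hN hw]; simp [hA])
  exact ⟨b, d, fun i => (mem_nthRootsFinset hN _).1 (hd i), hb⟩

lemma pow_mulVec {ι : Type*} [Fintype ι] [DecidableEq ι] {A : Matrix ι ι L} {v : ι → L} {c : L}
    (h : A *ᵥ v = c • v) : ∀ k : ℕ, (A ^ k) *ᵥ v = c ^ k • v
  | 0 => by simp
  | k + 1 => by
    rw [pow_succ, ← Matrix.mulVec_mulVec, h, Matrix.mulVec_smul, pow_mulVec h k, smul_smul, pow_succ']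

/-- Exponents of a matrix of order dividing `r`. -/
lemma exists_exponents [Fact r.Prime] (hζ : IsPrimitiveRoot ζ r) (A : Matrix (Fin n) (Fin n) L)
    (hA : A ^ r = 1) :
    ∃ M : Sym (ZMod r) n, A.charpoly = expPoly ζ (M : Multiset (ZMod r)) ∧
      ∀ k : ℕ, (A ^ k).charpoly = expPoly ζ ((M : Multiset (ZMod r)).map ((k : ZMod r) * ·)) := by
  obtain ⟨b, d, hd, hb⟩ := exists_eigen (Fact.out : r.Prime).pos hζ A hA
  have : ∀ i, ∃ a : ZMod r, ζ ^ a.val = d i := fun i => by
    obtain ⟨k, hk, hk'⟩ := hζ.eq_pow_of_pow_eq_one (hd i)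
    exact ⟨k, by rw [ZMod.val_natCast, Nat.mod_eq_of_lt hk, hk']⟩
  choose v hv using this
  refine ⟨⟨Finset.univ.val.map v, by simp⟩, ?_, fun k => ?_⟩
  · rw [charpoly_of_eigenbasis A b d hb, Finset.prod_eq_multiset_prod, expPoly]
    simp only [Sym.coe_mk, Multiset.map_map, Function.comp_def, hv]
  · rw [charpoly_of_eigenbasis (A ^ k) b (fun i => d i ^ k) fun i => pow_mulVec (hb i) k,
      Finset.prod_eq_multiset_prod, expPoly]
    simp only [Sym.coe_mk, Multiset.map_map, Function.comp_def, ← zeta_pow_val_mul hζ, hv]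

lemma charpoly_pow [Fact r.Prime] (hζ : IsPrimitiveRoot ζ r) {A : Matrix (Fin n) (Fin n) L} (hA : A ^ r = 1)
    {M : Multiset (ZMod r)} (hM : A.charpoly = expPoly ζ M) (k : ℕ) :
    (A ^ k).charpoly = expPoly ζ (M.map ((k : ZMod r) * ·)) := by
  obtain ⟨M', hM', hk⟩ := exists_exponents hζ A hA
  rw [expPoly_injective hζ (hM.symm.trans hM'), hk]

lemma pow_eq_one_of_charpoly [Fact r.Prime] (hζ : IsPrimitiveRoot ζ r) {N : ℕ} (hN : 0 < N) {w : L}
    (hw : IsPrimitiveRoot w N) {A : Matrix (Fin n) (Fin n) L} (hA : A ^ N = 1) {M : Multiset (ZMod r)}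
    (hM : A.charpoly = expPoly ζ M) : A ^ r = 1 := by
  obtain ⟨b, d, -, hb⟩ := exists_eigen hN hw A hA
  have hd : ∀ i, d i ^ r = 1 := fun i => by
    have h : (expPoly ζ M).IsRoot (d i) := by
      rw [← hM, charpoly_of_eigenbasis A b d hb, IsRoot.def, eval_prod]
      exact Finset.prod_eq_zero (Finset.mem_univ i) (by simp)
    rw [← mem_roots (expPoly_monic M).ne_zero, expPoly_roots, Multiset.mem_map] at h
    obtain ⟨a, -, ha⟩ := h
    rw [← ha, ← pow_mul, mul_comm, pow_mul, hζ.pow_eq_one, one_pow]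
  apply Matrix.toLin'.injective
  refine b.ext fun i => ?_
  rw [Matrix.toLin'_apply, Matrix.toLin'_apply, Matrix.one_mulVec, pow_mulVec (hb i), hd, one_smul]

/-- A ring map acting on `ζ` as the `k`-th power multiplies the exponents by `k`. -/
lemma expPoly_map [Fact r.Prime] (hζ : IsPrimitiveRoot ζ r) (σ : L →+* L) {k : ℕ} (hσ : ∀ x, σ x = x ^ k)
    (M : Multiset (ZMod r)) : (expPoly ζ M).map σ = expPoly ζ (M.map ((k : ZMod r) * ·)) := by
  rw [expPoly, expPoly, Polynomial.map_multiset_prod, Multiset.map_map, Multiset.map_map]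
  congr 1
  refine Multiset.map_congr rfl fun a _ => ?_
  simp only [Function.comp_apply, Polynomial.map_sub, Polynomial.map_X, Polynomial.map_C]
  rw [← zeta_pow_val_mul hζ, hσ]

end Exponents

section Count

variable {K : Type*} [Field K] [Fintype K] {p q n r : ℕ} [Fact p.Prime] [CharP K p]

omit [Fact p.Prime] in
lemma exists_eq_pow (hp : p.Prime) (hK : Fintype.card K = q ^ 2) : ∃ f, q = p ^ f ∧ 0 < f := by
  obtain ⟨⟨e, he⟩, hp', hq⟩ := FiniteField.card K p
  change Fintype.card K = p ^ e at hq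
  obtain ⟨f, -, rfl⟩ := (Nat.dvd_prime_pow hp).1 (show q ∣ p ^ e by rw [← hq, hK, sq]; exact dvd_mul_right q q)
  refine ⟨f, rfl, Nat.pos_of_ne_zero fun h => ?_⟩
  have := Fintype.one_lt_card (α := K)
  rw [hK, h, pow_zero, one_pow] at this
  omega

/-- The `q`-adjoint inverse of an element of order dividing `r`, and its exponents. -/
lemma adjoint_charpoly [hr : Fact r.Prime] (hK : Fintype.card K = q ^ 2) {L : Type*} [Field L] [Algebra K L]
    [CharP L p] {ζ : L} (hζ : IsPrimitiveRoot ζ r) (A : Matrix (Fin n) (Fin n) K) (hA : A ^ r = 1)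
    {M : Multiset (ZMod r)} (hM : (A.map (algebraMap K L)).charpoly = expPoly ζ M) :
    ((((A.map (fun x => x ^ q))ᵀ) ^ (r - 1)).map (algebraMap K L)).charpoly =
        expPoly ζ (M.map ((-(q : ZMod r)) * ·)) ∧ (((A.map (fun x => x ^ q))ᵀ)) ^ r = 1 := by
  obtain ⟨f, hf, -⟩ := exists_eq_pow (p := p) Fact.out hK
  haveI : ExpChar L p := ExpChar.prime Fact.out
  haveI : ExpChar K p := ExpChar.prime Fact.out
  let σ : L →+* L := iterateFrobenius L p f
  let τ : K →+* K := iterateFrobenius K p f
  have hσ : ∀ x, σ x = x ^ q := fun x => by rw [hf]; exact iterateFrobenius_def _ _ x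
  have hτ : ∀ x, τ x = x ^ q := fun x => by rw [hf]; exact iterateFrobenius_def _ _ x
  have hT : (A.map fun x => x ^ q) = τ.mapMatrix A := Matrix.ext fun i j => (hτ _).symm
  have hTr : ((A.map (fun x => x ^ q))ᵀ) ^ r = 1 := by
    rw [← Matrix.transpose_pow, hT, ← map_pow, hA, map_one, Matrix.transpose_one]
  refine ⟨?_, hTr⟩
  set T := (A.map (fun x => x ^ q))ᵀ with hTdef
  have hT1 : (T.map (algebraMap K L)).charpoly = expPoly ζ (M.map ((q : ZMod r) * ·)) := by
    rw [hTdef, Matrix.transpose_map, Matrix.charpoly_transpose, ← expPoly_map hζ σ hσ, ← hM, ← Matrix.charpoly_map]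
    congr 1
    ext i j
    simp [hσ]
  have hT2 : (T.map (algebraMap K L)) ^ r = 1 := by
    rw [← RingHom.mapMatrix_apply, ← map_pow, hTr, map_one]
  rw [← RingHom.mapMatrix_apply, map_pow, RingHom.mapMatrix_apply, charpoly_pow hζ hT2 hT1, Multiset.map_map]
  congr 1
  refine Multiset.map_congr rfl fun a _ => ?_
  rw [Function.comp_apply, Nat.cast_sub hr.out.one_le, ZMod.natCast_self]
  ring

/-- Classes of elements of odd prime order in `GU`. -/
theorem card_classes (hK : Fintype.card K = q ^ 2) (hr : r.Prime) (hrp : r ≠ p) (u : (ZMod r)ˣ)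
    (hu : (u : ZMod r) = -(q : ZMod r)) :
    Nat.card {C : ConjClasses ↥(Cfsg.GU n K q) // ∃ g : ↥(Cfsg.GU n K q), ConjClasses.mk g = C ∧ orderOf g = r} =
      Nat.choose (n / orderOf u + (r - 1) / orderOf u) ((r - 1) / orderOf u) - 1 := by
  classical
  haveI : Fact r.Prime := ⟨hr⟩
  have hcop : r.Coprime p := (Nat.coprime_primes hr Fact.out).2 hrp
  let L := AlgebraicClosure K
  let ι := algebraMap K L
  haveI : CharP L p := charP_of_injective_algebraMap ι.injective p
  haveI : ExpChar L p := ExpChar.prime Fact.out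
  have hne : ∀ N : ℕ, N.Coprime p → NeZero (N : L) := fun N hN => ⟨fun h => by
    have := (CharP.cast_eq_zero_iff L p N).1 h
    exact ((Fact.out : p.Prime).coprime_iff_not_dvd.1 hN.symm) this⟩
  haveI := hne r hcop
  obtain ⟨ζ, hζ⟩ := HasEnoughRootsOfUnity.exists_primitiveRoot L r
  have hinjm : ∀ A B : Matrix (Fin n) (Fin n) K, (A.map ι).charpoly = (B.map ι).charpoly → A.charpoly = B.charpoly :=
    fun A B h => Polynomial.map_injective ι ι.injective (by rw [← Matrix.charpoly_map, ← Matrix.charpoly_map, h])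
  have hex : ∀ g : ↥(Cfsg.GU n K q), g ^ r = 1 → ∃ M : Sym (ZMod r) n,
      (((g : GL (Fin n) K) : Matrix (Fin n) (Fin n) K).map ι).charpoly = expPoly ζ (M : Multiset (ZMod r)) := by
    intro g hg
    have h := congrArg (fun x : ↥(Cfsg.GU n K q) => ι.mapMatrix ((x : GL (Fin n) K) : Matrix (Fin n) (Fin n) K)) hg
    simp only [SubgroupClass.coe_pow, Units.val_pow_eq_pow_val, map_pow, OneMemClass.coe_one, Units.val_one,
      map_one] at h
    obtain ⟨M, hM, -⟩ := exists_exponents hζ _ h
    exact ⟨M, hM⟩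
  let f : ↥(Cfsg.GU n K q) → Sym (ZMod r) n := fun g =>
    if hg : g ^ r = 1 then (hex g hg).choose else Sym.replicate n 0
  have hf : ∀ g : ↥(Cfsg.GU n K q), g ^ r = 1 →
      (((g : GL (Fin n) K) : Matrix (Fin n) (Fin n) K).map ι).charpoly = expPoly ζ (f g : Multiset (ZMod r)) :=
    fun g hg => by simp only [f, dif_pos hg]; exact (hex g hg).choose_spec
  have hconj : ∀ g g' : ↥(Cfsg.GU n K q), g ^ r = 1 → g' ^ r = 1 → (IsConj g g' ↔ f g = f g') := by
    intro g g' hg hg'
    constructor
    · intro h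
      obtain ⟨c, hc⟩ := isConj_iff.1 ((CfsgLib.Classes.isConj_gu_iff hK g g').1 h)
      apply Sym.coe_injective
      refine expPoly_injective hζ ?_
      rw [← hf g hg, ← hf g' hg', Matrix.charpoly_map, Matrix.charpoly_map, ← hc, Units.val_mul, Units.val_mul,
        Matrix.coe_units_inv, Matrix.charpoly_units_conj]
    · intro h
      have hch : ((g : GL (Fin n) K) : Matrix (Fin n) (Fin n) K).charpoly =
          ((g' : GL (Fin n) K) : Matrix (Fin n) (Fin n) K).charpoly :=
        hinjm _ _ (by rw [hf g hg, hf g' hg', h])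
      have hc : ∀ x : ↥(Cfsg.GU n K q), x ^ r = 1 → (orderOf (x : GL (Fin n) K)).Coprime p := fun x hx =>
        CfsgLib.SemisimpleClasses.coprime_of_pow_eq_one hcop (by rw [← SubgroupClass.coe_pow, hx]; rfl)
      obtain ⟨e, he⟩ := CfsgLib.SemisimpleClasses.exists_conj_GL p _ _ (hc g hg) (hc g' hg') hch
      exact (CfsgLib.Classes.isConj_gu_iff hK g g').2 (isConj_iff.2 ⟨e, he⟩)
  have horder : ∀ g : ↥(Cfsg.GU n K q), orderOf g = r ↔ g ^ r = 1 ∧ g ≠ 1 := by
    intro g
    refine ⟨fun h => ⟨by rw [← h]; exact pow_orderOf_eq_one g, fun h1 => ?_⟩, fun h => ?_⟩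
    · rw [h1, orderOf_one] at h
      exact hr.ne_one h.symm
    · exact orderOf_eq_prime h.1 h.2
  have hf1 : f 1 = Sym.replicate n 0 := by
    apply Sym.coe_injective
    refine expPoly_injective hζ ?_
    rw [← hf 1 (one_pow r), OneMemClass.coe_one, Units.val_one, Matrix.map_one ι (map_zero ι) (map_one ι),
      Matrix.charpoly_one, expPoly, Sym.coe_replicate, Multiset.map_replicate, Multiset.prod_replicate]
    simp
  let Inv : Sym (ZMod r) n → Prop := fun M => (M : Multiset (ZMod r)).map ((u : ZMod r) * ·) = M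
  have himage : ∀ M : Sym (ZMod r) n, (∃ g : ↥(Cfsg.GU n K q), orderOf g = r ∧ f g = M) ↔
      Inv M ∧ M ≠ Sym.replicate n 0 := by
    intro M
    constructor
    · rintro ⟨g, hg, rfl⟩
      obtain ⟨hgr, hg1⟩ := (horder g).1 hg
      refine ⟨?_, fun h => hg1 ?_⟩
      · set A := ((g : GL (Fin n) K) : Matrix (Fin n) (Fin n) K) with hA
        have hAr : A ^ r = 1 := by
          rw [hA, ← Units.val_pow_eq_pow_val, ← SubgroupClass.coe_pow, hgr]; rfl
        have hG : (A.map (fun x => x ^ q))ᵀ * A = 1 := (CfsgLib.Generators.mem_GU_iff_qAdjoint hK _).1 g.2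
        obtain ⟨hadj, hTr⟩ := adjoint_charpoly (p := p) hK hζ A hAr (hf g hgr)
        have hAe : A = ((A.map (fun x => x ^ q))ᵀ) ^ (r - 1) := by
          calc A = ((A.map (fun x => x ^ q))ᵀ) ^ (r - 1) * ((A.map (fun x => x ^ q))ᵀ * A) := by
                rw [← mul_assoc, ← pow_succ, Nat.sub_add_cancel hr.one_le, hTr, one_mul]
            _ = _ := by rw [hG, mul_one]
        rw [← hAe, hf g hgr] at hadj
        show ((f g : Multiset (ZMod r))).map _ = _
        rw [hu]
        exact (expPoly_injective hζ hadj).symm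
      · exact isConj_one_left.1 (((hconj g 1 hgr (one_pow r)).2 (h.trans hf1.symm)))
    · rintro ⟨hM, hM0⟩
      have h0 : (expPoly ζ (M : Multiset (ZMod r))).coeff 0 ≠ 0 := by
        rw [coeff_zero_eq_eval_zero, expPoly, eval_multiset_prod, Multiset.map_map]
        refine Multiset.prod_ne_zero fun h => ?_
        obtain ⟨a, -, ha⟩ := Multiset.mem_map.1 h
        simp only [Function.comp_apply, eval_sub, eval_X, eval_C, zero_sub, neg_eq_zero] at ha
        exact pow_ne_zero _ (hζ.ne_zero hr.ne_zero) ha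
      obtain ⟨e, he, he0⟩ := exists_eq_pow (p := p) Fact.out hK
      let σ : L →+* L := iterateFrobenius L p (2 * e)
      have hσ : ∀ x, σ x = x ^ (q ^ 2) := fun x => by
        rw [he, ← pow_mul, mul_comm e 2]; exact iterateFrobenius_def _ _ x
      have hfix : (expPoly ζ (M : Multiset (ZMod r))).map σ = expPoly ζ (M : Multiset (ZMod r)) := by
        rw [expPoly_map hζ σ hσ]
        congr 1
        rw [show ((q ^ 2 : ℕ) : ZMod r) = (u : ZMod r) * u by rw [hu, Nat.cast_pow]; ring]
        conv_rhs => rw [← hM, ← hM, Multiset.map_map]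
        simp only [Function.comp_def, mul_assoc]
      have hrange : ∀ x : L, x ^ (q ^ 2) = x → x ∈ ι.range := by
        intro x hx
        have hq1 : 1 < q ^ 2 := hK ▸ Fintype.one_lt_card
        have hP0 : (X ^ (q ^ 2) - X : L[X]) ≠ 0 := FiniteField.X_pow_card_sub_X_ne_zero L hq1
        have hsub : Finset.univ.image ι ⊆ (X ^ (q ^ 2) - X : L[X]).roots.toFinset := by
          intro y hy
          obtain ⟨a, -, rfl⟩ := Finset.mem_image.1 hy
          rw [Multiset.mem_toFinset, mem_roots hP0, IsRoot.def, eval_sub, eval_pow, eval_X, ← map_pow, ← hK,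
            FiniteField.pow_card, sub_self]
        have hle : (X ^ (q ^ 2) - X : L[X]).roots.toFinset.card ≤ (Finset.univ.image ι).card := by
          rw [Finset.card_image_of_injective _ ι.injective, Finset.card_univ, hK]
          refine (Multiset.toFinset_card_le _).trans ((card_roots' _).trans ?_)
          rw [FiniteField.X_pow_card_sub_X_natDegree_eq L hq1]
        have hx' : x ∈ (X ^ (q ^ 2) - X : L[X]).roots.toFinset := by
          rw [Multiset.mem_toFinset, mem_roots hP0, IsRoot.def, eval_sub, eval_pow, eval_X, hx, sub_self]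
        rw [← Finset.eq_of_subset_of_card_le hsub hle] at hx'
        obtain ⟨a, -, ha⟩ := Finset.mem_image.1 hx'
        exact ⟨a, ha⟩
      obtain ⟨χ, hχ⟩ : expPoly ζ (M : Multiset (ZMod r)) ∈ Polynomial.lifts ι :=
        (Polynomial.lifts_iff_coeff_lifts _).2 fun k =>
          hrange _ (by rw [← hσ, ← Polynomial.coeff_map, hfix])
      change χ.map ι = _ at hχ
      have hχm : χ.Monic := monic_of_injective ι.injective (by rw [hχ]; exact expPoly_monic _)
      have hχd : χ.natDegree = n := by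
        rw [← natDegree_map_eq_of_injective ι.injective, hχ, expPoly_natDegree]; exact M.2
      have hχ0 : χ.coeff 0 ≠ 0 := fun h => h0 (by rw [← hχ, coeff_map, h, map_zero])
      obtain ⟨g, hg, hgc⟩ := CfsgLib.SemisimpleClasses.exists_GL_charpoly (p := p) hχm hχd hχ0
      set A := (g : Matrix (Fin n) (Fin n) K) with hA
      have hgA : (A.map ι).charpoly = expPoly ζ (M : Multiset (ZMod r)) := by rw [Matrix.charpoly_map, hgc, hχ]
      have hAr : A ^ r = 1 := by
        apply Matrix.map_injective ι.injective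
        show (A ^ r).map ι = (1 : Matrix (Fin n) (Fin n) K).map ι
        rw [Matrix.map_one ι (map_zero ι) (map_one ι), ← RingHom.mapMatrix_apply, map_pow]
        haveI := hne _ hg
        obtain ⟨w, hw⟩ := HasEnoughRootsOfUnity.exists_primitiveRoot L (orderOf g)
        exact pow_eq_one_of_charpoly hζ (orderOf_pos g) hw (A := ι.mapMatrix A)
          (by rw [← map_pow, hA, ← Units.val_pow_eq_pow_val, pow_orderOf_eq_one, Units.val_one, map_one]) hgA
      obtain ⟨hadj, hTr⟩ := adjoint_charpoly (p := p) hK hζ A hAr hgA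
      rw [← hu, show (M : Multiset (ZMod r)).map ((u : ZMod r) * ·) = M from hM, ← hgA] at hadj
      let T : GL (Fin n) K := (IsUnit.of_pow_eq_one hTr hr.ne_zero).unit
      have hTv : (T : Matrix (Fin n) (Fin n) K) = (A.map (fun x => x ^ q))ᵀ := rfl
      have hTr' : T ^ r = 1 := Units.ext (by rw [Units.val_pow_eq_pow_val, hTv, hTr, Units.val_one])
      obtain ⟨c, hc⟩ := CfsgLib.SemisimpleClasses.exists_conj_GL p g (T ^ (r - 1)) hg
        (CfsgLib.SemisimpleClasses.coprime_of_pow_eq_one hcop (by rw [← pow_mul, mul_comm, pow_mul, hTr', one_pow]))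
        (hinjm _ _ (by rw [Units.val_pow_eq_pow_val, hTv, hadj]))
      have hsim : IsConj A ((A.map (fun x : K => x ^ q))ᵀ)⁻¹ := by
        rw [Matrix.inv_eq_left_inv (B := ((A.map (fun x => x ^ q))ᵀ) ^ (r - 1))
          (by rw [← pow_succ, Nat.sub_add_cancel hr.one_le, hTr]), ← hTv, ← Units.val_pow_eq_pow_val]
        exact (Units.coeHom (Matrix (Fin n) (Fin n) K)).map_isConj (isConj_iff.2 ⟨c, hc⟩)
      obtain ⟨B, hB⟩ := (Cfsg.Agent.S2588.result hK g).2 hsim
      obtain ⟨c', hc'⟩ := isConj_iff.1 hB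
      have hBr : B ^ r = 1 := Subtype.ext (by
        rw [SubgroupClass.coe_pow, ← hc', conj_pow, show g ^ r = 1 from Units.ext (by
          rw [Units.val_pow_eq_pow_val, ← hA, hAr, Units.val_one])]
        simp)
      have hfB : f B = M := by
        apply Sym.coe_injective
        refine expPoly_injective hζ ?_
        rw [← hf B hBr, ← hgA, Matrix.charpoly_map, Matrix.charpoly_map, ← hc', Units.val_mul, Units.val_mul,
          Matrix.coe_units_inv, Matrix.charpoly_units_conj]
      exact ⟨B, (horder B).2 ⟨hBr, fun h1 => hM0 (by rw [← hfB, h1, hf1])⟩, hfB⟩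
  rw [CfsgLib.Classes.InvTwo.card_classes_eq (fun g : ↥(Cfsg.GU n K q) => orderOf g = r) f
      (fun g g' hg hg' => hconj g g' ((horder g).1 hg).1 ((horder g').1 hg').1),
    Nat.card_congr (Equiv.subtypeEquivRight himage),
    ← OrbitCount.card_invariant u n, Nat.card_eq_fintype_card, Nat.card_eq_fintype_card,
    Fintype.card_subtype, Fintype.card_subtype]
  have h0 : Sym.replicate n (0 : ZMod r) ∈ Finset.univ.filter Inv := by
    simp [Inv, Sym.coe_replicate, Multiset.map_replicate]
  rw [← Finset.card_erase_of_mem h0]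
  congr 1
  ext M
  simp [and_comm, Inv]

end Count

end CfsgLib.Classes.GUPrime
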