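import Cfsg.Agent.Lib.Classes.InvolutionTwo
import Cfsg.Agent.Lib.Forms.SympBridge
import Cfsg.Agent.Lib.ClassicalLinear.SympCard

/-!
Centralisers of involutions in symplectic groups in characteristic two: the orbit of adapted families.
-/

set_option autoImplicit false
set_option linter.style.haveILetI false

namespace CfsgLib.Classes.InvTwo

open Module
open scoped Matrix

variable {F V : Type*} [Field F] [AddCommGroup V] [Module F V]

/-- Isometries of `B` commuting with `N`. -/
abbrev CommIsom (B : LinearMap.BilinForm F V) (N : V →ₗ[F] V) :=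
  {g : V ≃ₗ[F] V // (∀ u v, B (g u) (g v) = B u v) ∧ ∀ v, g (N v) = N (g v)}

/-- Isometries of `B` restricted to a subspace. -/
abbrev SubIsom (B : LinearMap.BilinForm F V) (P : Submodule F V) :=
  {g : P ≃ₗ[F] P // ∀ u v : P, B (g u : V) (g v : V) = B (u : V) (v : V)}

variable [CharP F 2] [FiniteDimensional F V] {B : LinearMap.BilinForm F V} {N : V →ₗ[F] V}
  {ι : Type} [Fintype ι] [DecidableEq ι] {σ : ι → ι} {x : ι → V}

/-- The matrix pairing the members of an adapted family. -/
def pairMat (F : Type*) [Field F] (σ : ι → ι) : Matrix ι ι F := Matrix.of fun i j => if σ i = j then 1 else 0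

/-- The orthogonal complement of the support. -/
noncomputable def suppOrth (B : LinearMap.BilinForm F V) (N : V →ₗ[F] V) (x : ι → V) : Submodule F V :=
  LinearMap.ker (LinearMap.pi fun i : ι ⊕ ι => B (Sum.elim x (fun j => N (x j)) i))

omit [CharP F 2] [FiniteDimensional F V] [Fintype ι] [DecidableEq ι] in
theorem mem_suppOrth {v : V} : v ∈ suppOrth B N x ↔ ∀ i, B (x i) v = 0 ∧ B (N (x i)) v = 0 := by
  simp [suppOrth, funext_iff, forall_and]

/-- The splitting of the space along the support of an adapted family. -/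
noncomputable def split (hN : IsNilSelf B N) (hσ : Function.Involutive σ) (hx : Adapted B N σ x) :
    ((ι ⊕ ι → F) × suppOrth B N x) ≃ₗ[F] V :=
  LinearEquiv.ofBijective ((lin N x).coprod (suppOrth B N x).subtype) <| by
    constructor
    · rw [injective_iff_map_eq_zero]
      rintro ⟨c, p⟩ h
      simp only [LinearMap.coprod_apply, Submodule.coe_subtype] at h
      have hp := mem_suppOrth.1 p.2
      have hc : c = 0 := by
        funext k
        rcases k with i | i
        · have h1 := congrArg (B (N (x (σ i)))) h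
          rw [map_add, map_zero, (hx.pair_lin hN hσ c _).2, (hp _).2, add_zero, hσ] at h1
          exact h1
        · have h1 := congrArg (B (x (σ i))) h
          rw [map_add, map_zero, (hx.pair_lin hN hσ c _).1, (hp _).1, add_zero, hσ] at h1
          exact h1
      subst hc
      rw [map_zero, zero_add] at h
      simp [Prod.ext_iff, Submodule.coe_eq_zero.1 h]
    · intro v
      exact ⟨(coords B N σ x v, ⟨v - lin N x (coords B N σ x v),
        mem_suppOrth.2 fun i => hx.compl_orth hN hσ v i⟩), by simp⟩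

theorem split_apply (hN : IsNilSelf B N) (hσ : Function.Involutive σ) (hx : Adapted B N σ x)
    (c : ι ⊕ ι → F) (p : suppOrth B N x) : split hN hσ hx (c, p) = lin N x c + p := rfl

omit [CharP F 2] [FiniteDimensional F V] [DecidableEq ι] in
theorem bilin_lin_orth {p : V} (hp : p ∈ suppOrth B N x) (c : ι ⊕ ι → F) : B (lin N x c) p = 0 := by
  simp [lin_apply, (mem_suppOrth.1 hp _).1, (mem_suppOrth.1 hp _).2]

theorem bilin_split (hA : B.IsAlt) (hN : IsNilSelf B N) (hσ : Function.Involutive σ) (hx : Adapted B N σ x)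
    (c d : ι ⊕ ι → F) (p r : suppOrth B N x) :
    B (split hN hσ hx (c, p)) (split hN hσ hx (d, r)) = B (lin N x c) (lin N x d) + B (p : V) (r : V) := by
  rw [split_apply, split_apply]
  simp only [map_add, LinearMap.add_apply, bilin_lin_orth r.2, symm_of_alt hA (p : V) (lin N x d),
    bilin_lin_orth p.2]
  ring

theorem map_suppOrth (hB : B.Nondegenerate) (hA : B.IsAlt) (hN : IsNilSelf B N) (hσ : Function.Involutive σ)
    (hx : Adapted B N σ x) {p : V} (hp : p ∈ suppOrth B N x) : N p = 0 :=
  hx.map_eq_zero hB hA hN hσ fun i => (mem_suppOrth.1 hp i).2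

/-- The isometries fixing an adapted family. -/
noncomputable def stabEquiv (hB : B.Nondegenerate) (hA : B.IsAlt) (hN : IsNilSelf B N)
    (hσ : Function.Involutive σ) (hx : Adapted B N σ x) :
    {g : CommIsom B N // ∀ i, g.1 (x i) = x i} ≃ SubIsom B (suppOrth B N x) := by
  have hlin : ∀ g : {g : CommIsom B N // ∀ i, g.1 (x i) = x i}, ∀ c, g.1.1 (lin N x c) = lin N x c := fun g c => by
    simp [lin_apply, g.1.2.2, g.2]
  have hmem : ∀ g : {g : CommIsom B N // ∀ i, g.1 (x i) = x i}, ∀ p ∈ suppOrth B N x, g.1.1 p ∈ suppOrth B N x := by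
    intro g p hp
    refine mem_suppOrth.2 fun i => ⟨?_, ?_⟩
    · have := g.1.2.1 (x i) p
      rw [g.2] at this
      exact this.trans (mem_suppOrth.1 hp i).1
    · have := g.1.2.1 (N (x i)) p
      rw [g.1.2.2, g.2] at this
      exact this.trans (mem_suppOrth.1 hp i).2
  let S := split hN hσ hx
  refine
  { toFun := fun g => ⟨LinearEquiv.ofBijective (g.1.1.toLinearMap.restrict (hmem g)) ?_, fun u v => g.1.2.1 u v⟩
    invFun := fun h => ⟨⟨S.symm.trans (((LinearEquiv.refl F _).prodCongr h.1).trans S), ?_, ?_⟩, fun i => ?_⟩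
    left_inv := fun g => ?_
    right_inv := fun h => ?_ }
  · refine ⟨fun u v huv => Subtype.ext (g.1.1.injective (congrArg Subtype.val huv)), fun w => ?_⟩
    obtain ⟨⟨c, p⟩, hcp⟩ := S.surjective (g.1.1.symm w)
    refine ⟨p, Subtype.ext ?_⟩
    have h1 : g.1.1 (S (c, p)) = w := by rw [hcp, LinearEquiv.apply_symm_apply]
    rw [split_apply, map_add, hlin] at h1
    have h2 : S (c, ⟨g.1.1 p, hmem g p p.2⟩) = S (0, w) := by
      rw [split_apply, split_apply, map_zero, zero_add]; exact h1
    exact congrArg (fun z => (z.2 : V)) (S.injective h2)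
  · intro u v
    obtain ⟨⟨c, p⟩, rfl⟩ := S.surjective u
    obtain ⟨⟨d, r⟩, rfl⟩ := S.surjective v
    simp only [LinearEquiv.trans_apply, LinearEquiv.symm_apply_apply, LinearEquiv.prodCongr_apply,
      LinearEquiv.refl_apply, S]
    rw [bilin_split hA, bilin_split hA, h.2]
  · intro v
    obtain ⟨⟨c, p⟩, rfl⟩ := S.surjective v
    have hN' : ∀ (c : ι ⊕ ι → F) (p : suppOrth B N x),
        N (S (c, p)) = S (Sum.elim 0 fun i => c (Sum.inl i), 0) := fun c p => by
      rw [split_apply, split_apply, map_add, map_suppOrth hB hA hN hσ hx p.2, add_zero, map_lin hN.sq]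
      simp
    simp only [hN', LinearEquiv.trans_apply, LinearEquiv.symm_apply_apply, LinearEquiv.prodCongr_apply,
      LinearEquiv.refl_apply, map_zero]
  · have hxi : x i = S (Sum.elim (Pi.single i 1) 0, 0) := by
      simp [S, split_apply, lin_apply, Pi.single_apply]
    rw [hxi]
    simp
  · apply Subtype.ext; apply Subtype.ext
    refine LinearEquiv.ext fun v => ?_
    obtain ⟨⟨c, p⟩, rfl⟩ := S.surjective v
    simp only [LinearEquiv.trans_apply, LinearEquiv.symm_apply_apply, LinearEquiv.prodCongr_apply,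
      LinearEquiv.refl_apply]
    rw [split_apply, split_apply, map_add, hlin]
    rfl
  · apply Subtype.ext
    refine LinearEquiv.ext fun p => Subtype.ext ?_
    show S ((LinearEquiv.refl F (ι ⊕ ι → F)).prodCongr h.1 (S.symm (p : V))) = _
    have hp : (p : V) = S (0, p) := by rw [split_apply, map_zero, zero_add]
    rw [hp, S.symm_apply_apply]
    simp [S, split_apply]

/-- The commuting isometries are counted by adapted families and isometries of the complement. -/
theorem card_commIsom (hB : B.Nondegenerate) (hA : B.IsAlt) (hN : IsNilSelf B N)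
    (hσ : Function.Involutive σ) (hx : Adapted B N σ x) :
    Nat.card (CommIsom B N) = Nat.card {x' : ι → V // Adapted B N σ x'} * Nat.card (SubIsom B (suppOrth B N x)) := by
  classical
  have hex : ∀ x' : {x' : ι → V // Adapted B N σ x'}, ∃ g : CommIsom B N, ∀ i, g.1 (x i) = x'.1 i := by
    rintro ⟨x', hx'⟩
    let e := LinearEquiv.ofInjective (lin N x) (hx.lin_injective hN hσ)
    obtain ⟨g, hg, hgx⟩ := CfsgLib.Forms.witt_extension_alt B hB hA (LinearMap.range (lin N x))
      ((lin N x').comp e.symm.toLinearMap) ((hx'.lin_injective hN hσ).comp e.symm.injective) (fun u u' => by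
        obtain ⟨a, rfl⟩ := e.surjective u
        obtain ⟨b, rfl⟩ := e.surjective u'
        show B (lin N x' (e.symm (e a))) (lin N x' (e.symm (e b))) = B (lin N x a) (lin N x b)
        rw [e.symm_apply_apply, e.symm_apply_apply, hx'.bilin_lin hN hσ, hx.bilin_lin hN hσ])
    have hgl : ∀ c, g (lin N x c) = lin N x' c := fun c =>
      (hgx (e c)).trans (congrArg (lin N x') (e.symm_apply_apply c))
    refine ⟨⟨g, hg, hx.intertwine hB hA hN hσ hN hx' g hg hgl⟩, fun i => ?_⟩
    have := hgl (Sum.elim (Pi.single i 1) 0)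
    simpa [lin_apply, Pi.single_apply] using this
  choose t ht using hex
  have hmap : ∀ g : CommIsom B N, Adapted B N σ fun i => g.1 (x i) := fun g => by
    refine ⟨fun i j => (g.2.1 _ _).trans (hx.orth i j), fun i j => ?_, hx.card⟩
    show B (g.1 (x i)) (N (g.1 (x j))) = _
    rw [← g.2.2, g.2.1]
    exact hx.pair i j
  rw [← Nat.card_congr (stabEquiv hB hA hN hσ hx), ← Nat.card_prod]
  refine Nat.card_congr
    { toFun := fun g => (⟨_, hmap g⟩, ⟨⟨g.1.trans (t ⟨_, hmap g⟩).1.symm, ?_, ?_⟩, fun i => ?_⟩)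
      invFun := fun q => ⟨q.2.1.1.trans (t q.1).1, ?_, ?_⟩
      left_inv := fun g => ?_
      right_inv := fun q => ?_ }
  · intro u v
    rw [LinearEquiv.trans_apply, LinearEquiv.trans_apply, ← (t ⟨_, hmap g⟩).2.1, LinearEquiv.apply_symm_apply,
      LinearEquiv.apply_symm_apply, g.2.1]
  · intro v
    rw [LinearEquiv.trans_apply, LinearEquiv.trans_apply, LinearEquiv.symm_apply_eq, (t ⟨_, hmap g⟩).2.2,
      LinearEquiv.apply_symm_apply, g.2.2]
  · rw [LinearEquiv.trans_apply, LinearEquiv.symm_apply_eq, ht]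
  · intro u v
    rw [LinearEquiv.trans_apply, LinearEquiv.trans_apply, (t q.1).2.1, q.2.1.2.1]
  · intro v
    rw [LinearEquiv.trans_apply, LinearEquiv.trans_apply, q.2.1.2.2, (t q.1).2.2]
  · apply Subtype.ext
    refine LinearEquiv.ext fun v => ?_
    simp
  · obtain ⟨x', g⟩ := q
    have h1 : (fun i => (g.1.1.trans (t x').1) (x i)) = x'.1 := funext fun i => by
      rw [LinearEquiv.trans_apply, g.2, ht]
    refine Prod.ext (Subtype.ext h1) ?_
    apply Subtype.ext; apply Subtype.ext
    refine LinearEquiv.ext fun v => ?_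
    simp only [LinearEquiv.trans_apply, LinearEquiv.symm_apply_eq]
    congr 3
    exact Subtype.ext h1.symm

/-- The symmetrised equations have as many solutions as there are symmetric matrices. -/
theorem card_symm_solutions [Fintype F] {S : Matrix ι ι F} {M₀ : Matrix ι ι F} (h₀ : S + (M₀ + M₀ᵀ) = 0) :
    Nat.card {Y : Matrix ι ι F // S + (Y + Yᵀ) = 0} =
      Fintype.card F ^ Nat.choose (Fintype.card ι + 1) 2 := by
  classical
  have hiff : ∀ Y : Matrix ι ι F, S + (Y + Yᵀ) = 0 ↔ (Y - M₀)ᵀ = Y - M₀ := fun Y => by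
    rw [← h₀, add_right_inj, Matrix.transpose_sub]
    constructor <;> intro h <;> ext i j <;>
      have := congrFun (congrFun h i) j <;>
      simp only [Matrix.sub_apply, Matrix.add_apply, Matrix.transpose_apply, CharTwo.sub_eq_add] at this ⊢
    · linear_combination this + (M₀ j i - Y i j) * (CharTwo.two_eq_zero : (2 : F) = 0)
    · linear_combination this + (Y i j - M₀ j i) * (CharTwo.two_eq_zero : (2 : F) = 0)
  let e : {Y : Matrix ι ι F // S + (Y + Yᵀ) = 0} ≃ (Sym2 ι → F) :=
  { toFun := fun Y => Sym2.lift ⟨fun i j => (Y.1 - M₀) i j, fun i j =>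
      (congrFun (congrFun ((hiff Y.1).1 Y.2) i) j).symm⟩
    invFun := fun f => ⟨Matrix.of (fun i j => f s(i, j)) + M₀, (hiff _).2 (by
      ext i j; simp [Sym2.eq_swap])⟩
    left_inv := fun Y => by
      apply Subtype.ext; ext i j; simp
    right_inv := fun f => by
      funext z
      induction z using Sym2.inductionOn with
      | hf i j => simp }
  rw [Nat.card_congr e, Nat.card_eq_fintype_card, Fintype.card_fun, Sym2.card]

/-- The adapted families. -/
theorem card_adapted [Fintype F] (hB : B.Nondegenerate) (hA : B.IsAlt) (hN : IsNilSelf B N)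
    (hσ : Function.Involutive σ) (hx : Adapted B N σ x) :
    Nat.card {x' : ι → V // Adapted B N σ x'} =
      Nat.card {A : Matrix ι ι F // A * pairMat F σ * Aᵀ = pairMat F σ} *
        (Nat.card (suppOrth B N x) ^ Fintype.card ι * Fintype.card F ^ Nat.choose (Fintype.card ι + 1) 2) := by
  classical
  haveI : Finite V := Module.finite_of_finite F
  set J := pairMat F σ with hJ
  have hJJ : J * J = 1 := by
    ext i j
    rw [Matrix.mul_apply]
    simp only [hJ, pairMat, Matrix.of_apply, ite_mul, one_mul, zero_mul, Finset.sum_ite_eq, Finset.mem_univ,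
      if_true, hσ i, Matrix.one_apply]
  have hJT : Jᵀ = J := by
    ext i j
    simp only [hJ, pairMat, Matrix.transpose_apply, Matrix.of_apply]
    congr 1
    exact propext ⟨fun h => by rw [← h, hσ], fun h => by rw [← h, hσ]⟩
  let P := suppOrth B N x
  let S := split hN hσ hx
  -- the member of a family with given coordinates
  let mk : Matrix ι ι F → Matrix ι ι F → (ι → P) → ι → V := fun A M p i => S (Sum.elim (A i) (M i), p i)
  have hlin : ∀ c : ι ⊕ ι → F, ∀ d : ι ⊕ ι → F, B (lin N x c) (lin N x d) =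
      (c ∘ Sum.inl) ⬝ᵥ (J *ᵥ (d ∘ Sum.inr)) + (c ∘ Sum.inr) ⬝ᵥ (J *ᵥ (d ∘ Sum.inl)) := fun c d => by
    rw [hx.bilin_lin hN hσ]
    simp [hJ, pairMat, Matrix.mulVec, dotProduct]
  have hdot : ∀ (A A' : Matrix ι ι F) i j, A i ⬝ᵥ (J *ᵥ A' j) = (A * J * A'ᵀ) i j := fun A A' i j => by
    rw [Matrix.dotProduct_mulVec]; rfl
  have hpair : ∀ A M p i j, B (mk A M p i) (N (mk A M p j)) = (A * J * Aᵀ) i j := fun A M p i j => by
    show B (S _) (N (S _)) = _
    rw [show N (S (Sum.elim (A j) (M j), p j)) = S (Sum.elim 0 (A j), 0) by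
      rw [split_apply, split_apply, map_add, map_suppOrth hB hA hN hσ hx (p j).2, add_zero, map_lin hN.sq]
      simp, bilin_split hA, hlin]
    simp [hdot]
  have horth : ∀ A M p i j, B (mk A M p i) (mk A M p j) =
      B (p i : V) (p j : V) + ((M * J * Aᵀ) i j + (M * J * Aᵀ) j i) := fun A M p i j => by
    show B (S _) (S _) = _
    rw [bilin_split hA, hlin]
    have hT : (M * J * Aᵀ)ᵀ = A * J * Mᵀ := by simp [Matrix.transpose_mul, hJT, Matrix.mul_assoc]
    rw [show (M * J * Aᵀ) j i = (A * J * Mᵀ) i j from congrFun (congrFun hT i) j]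
    simp only [Sum.elim_comp_inl, Sum.elim_comp_inr, hdot]
    ring
  let T := Σ A : {A : Matrix ι ι F // A * J * Aᵀ = J}, Σ p : ι → P,
    {Y : Matrix ι ι F // Matrix.of (fun i j => B (p i : V) (p j : V)) + (Y + Yᵀ) = 0}
  have hinv : ∀ A : Matrix ι ι F, A * J * Aᵀ = J → J * Aᵀ * (J * A) = 1 := fun A h => by
    rw [mul_eq_one_comm, Matrix.mul_assoc, ← Matrix.mul_assoc A, h, hJJ]
  let e : T ≃ {x' : ι → V // Adapted B N σ x'} := Equiv.ofBijective
    (fun q => ⟨mk q.1.1 (q.2.2.1 * (J * q.1.1)) q.2.1, fun i j => by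
      rw [horth, show q.2.2.1 * (J * q.1.1) * J * q.1.1ᵀ = q.2.2.1 by
        rw [Matrix.mul_assoc _ J, Matrix.mul_assoc q.2.2.1, mul_eq_one_comm.1 (hinv _ q.1.2), Matrix.mul_one]]
      exact congrFun (congrFun q.2.2.2 i) j, fun i j => by
      rw [hpair, q.1.2]; simp [hJ, pairMat], hx.card⟩) <| by
    constructor
    · rintro ⟨⟨A, hA'⟩, p, Y, hY⟩ ⟨⟨A', hA''⟩, p', Y', hY'⟩ h
      have h1 : ∀ i, (Sum.elim (A i) ((Y * (J * A)) i), p i) = (Sum.elim (A' i) ((Y' * (J * A')) i), p' i) :=
        fun i => S.injective (congrFun (congrArg Subtype.val h) i)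
      obtain rfl : A = A' := Matrix.ext fun i j => congrFun (congrArg Prod.fst (h1 i)) (Sum.inl j)
      obtain rfl : p = p' := funext fun i => congrArg Prod.snd (h1 i)
      have hM : Y * (J * A) = Y' * (J * A) :=
        Matrix.ext fun i j => congrFun (congrArg Prod.fst (h1 i)) (Sum.inr j)
      have h2 := congrArg (· * (J * Aᵀ)) hM
      simp only [Matrix.mul_assoc Y, Matrix.mul_assoc Y', mul_eq_one_comm.1 (hinv A hA'), Matrix.mul_one] at h2
      obtain rfl : Y = Y' := h2
      rfl
    · rintro ⟨x', hx'⟩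
      let cp := fun i => S.symm (x' i)
      let A : Matrix ι ι F := Matrix.of fun i j => (cp i).1 (Sum.inl j)
      let M : Matrix ι ι F := Matrix.of fun i j => (cp i).1 (Sum.inr j)
      have hxe : mk A M (fun i => (cp i).2) = x' := funext fun i => by
        show S (Sum.elim (A i) (M i), (cp i).2) = x' i
        have : Sum.elim (A i) (M i) = (cp i).1 := funext fun k => by cases k <;> rfl
        rw [this]
        exact S.apply_symm_apply (x' i)
      have hA' : A * J * Aᵀ = J := Matrix.ext fun i j => by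
        rw [← hpair A M (fun i => (cp i).2), hxe, hx'.pair]; simp [hJ, pairMat]
      have hY : Matrix.of (fun i j => B ((cp i).2 : V) ((cp j).2 : V)) + (M * J * Aᵀ + (M * J * Aᵀ)ᵀ) = 0 :=
        Matrix.ext fun i j => by
          have h2 := horth A M (fun i => (cp i).2) i j
          rw [hxe, hx'.orth] at h2
          simpa only [Matrix.add_apply, Matrix.of_apply, Matrix.transpose_apply, Matrix.zero_apply] using h2.symm
      refine ⟨⟨⟨A, hA'⟩, fun i => (cp i).2, ⟨M * J * Aᵀ, hY⟩⟩, Subtype.ext ?_⟩
      have hMM : M * J * Aᵀ * (J * A) = M := by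
        rw [Matrix.mul_assoc M J, Matrix.mul_assoc M, hinv A hA', Matrix.mul_one]
      show mk A (M * J * Aᵀ * (J * A)) (fun i => (cp i).2) = x'
      rw [hMM]; exact hxe
  rw [← Nat.card_congr e]
  have hfib : ∀ p : ι → P,
      Nat.card {Y : Matrix ι ι F // Matrix.of (fun i j => B (p i : V) (p j : V)) + (Y + Yᵀ) = 0} =
        Fintype.card F ^ Nat.choose (Fintype.card ι + 1) 2 := fun p => by
    obtain ⟨M, -, hM⟩ := exists_correction (x := fun i => (p i : V)) hA 0
    exact card_symm_solutions (M₀ := Matrix.of M) (Matrix.ext fun i j => by simpa using hM i j)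
  haveI := Fintype.ofFinite P
  simp only [T, Nat.card_sigma, hfib, Finset.sum_const, Finset.card_univ, smul_eq_mul, Fintype.card_fun]
  rw [Nat.card_eq_fintype_card, Nat.card_eq_fintype_card (α := P)]

/-- The isometries of the complement form a symplectic group. -/
theorem card_subIsom [Fintype F] (hB : B.Nondegenerate) (hA : B.IsAlt) (hN : IsNilSelf B N)
    (hσ : Function.Involutive σ) (hx : Adapted B N σ x) {d : ℕ} (hd : finrank F V = 2 * Fintype.card ι + 2 * d) :
    Nat.card (SubIsom B (suppOrth B N x)) = Nat.card (Matrix.symplecticGroup (Fin d) F) ∧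
      Nat.card (suppOrth B N x) = Fintype.card F ^ (2 * d) := by
  classical
  let P := suppOrth B N x
  have hdim : finrank F P = 2 * d := by
    have := (split hN hσ hx).finrank_eq
    rw [finrank_prod, finrank_fintype_fun_eq_card, Fintype.card_sum, hd] at this
    show finrank F (suppOrth B N x) = _
    omega
  refine ⟨?_, by rw [Module.natCard_eq_pow_finrank (K := F), hdim, Nat.card_eq_fintype_card]⟩
  let BP : LinearMap.BilinForm F P := B.compl₁₂ P.subtype P.subtype
  have hPA : BP.IsAlt := fun v => hA (v : V)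
  have hPB : BP.Nondegenerate := by
    have key : ∀ p : P, (∀ r : P, B (p : V) (r : V) = 0) → p = 0 := fun p h => Subtype.ext <| hB.1 _ fun v => by
      obtain ⟨⟨c, r⟩, rfl⟩ := (split hN hσ hx).surjective v
      rw [split_apply, map_add, symm_of_alt hA (p : V) (lin N x c), bilin_lin_orth p.2, h r, add_zero]
    exact ⟨key, fun p h => key p fun r => (symm_of_alt hA _ _).trans (h r)⟩
  obtain ⟨E, hE⟩ := CfsgLib.Forms.alt_isometric BP hPB hPA (CfsgLib.Omega.sympBilin d F)
    (CfsgLib.Forms.sympBilin_nondeg d F) (CfsgLib.Forms.sympBilin_isAlt d F)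
    (by rw [hdim, finrank_fintype_fun_eq_card]; simp [two_mul])
  have hE' : ∀ u v, BP (E.symm u) (E.symm v) = Cfsg.sympForm d F u v := fun u v => by
    rw [← hE, E.apply_symm_apply, E.apply_symm_apply, CfsgLib.Omega.sympBilin_apply]
  refine Nat.card_congr (Equiv.ofBijective (fun g => CfsgLib.Forms.spOfEquiv (E.symm.trans (g.1.trans E))
    fun u v => ?_) ⟨fun g g' h => ?_, fun M => ?_⟩)
  · rw [← CfsgLib.Omega.sympBilin_apply, LinearEquiv.trans_apply, LinearEquiv.trans_apply, LinearEquiv.trans_apply,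
      LinearEquiv.trans_apply, hE, ← hE']
    exact g.2 _ _
  · apply Subtype.ext
    refine LinearEquiv.ext fun p => E.injective ?_
    have h1 := congrArg (fun M : Matrix.symplecticGroup (Fin d) F =>
      (M : Matrix (Fin d ⊕ Fin d) (Fin d ⊕ Fin d) F) *ᵥ E p) h
    simpa [CfsgLib.Forms.spOfEquiv_mulVec] using h1
  · let L : (Fin d ⊕ Fin d → F) ≃ₗ[F] (Fin d ⊕ Fin d → F) :=
      Geometric.apEquiv (CfsgLib.Forms.spToGL d F M)
    have hL : ∀ u v, Cfsg.sympForm d F (L u) (L v) = Cfsg.sympForm d F u v :=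
      CfsgLib.Omega.sympForm_mulVec_of_mem M.2
    refine ⟨⟨E.trans (L.trans E.symm), fun u v => ?_⟩, Subtype.ext (Matrix.ext_of_mulVec_single fun i => ?_)⟩
    · show BP _ _ = BP u v
      rw [LinearEquiv.trans_apply, LinearEquiv.trans_apply, LinearEquiv.trans_apply, LinearEquiv.trans_apply,
        hE', hL, ← CfsgLib.Omega.sympBilin_apply, hE]
    · rw [CfsgLib.Forms.spOfEquiv_mulVec]
      simp [L, Geometric.ap_def, CfsgLib.Forms.coe_spToGL]

end CfsgLib.Classes.InvTwo
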