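import Cfsg.Agent.Lib.Classes.POmegaOut
import Cfsg.Agent.Lib.ClassicalForms.Ortho.Parity
import Cfsg.Agent.S2600

/-!
Field automorphisms of `PΩ⁻` in characteristic two: the `f`-th power of the Frobenius is outer.
-/

set_option autoImplicit false
set_option linter.unusedSectionVars false

open Matrix
open CfsgLib.ClassicalForms CfsgLib.Parabolic.POmegaAut CfsgLib.Classes.POmegaOut

namespace CfsgLib.Classes.OmegaMinusTwo

variable {F : Type*} [Field F] [Fintype F] [CharP F 2] {f m : ℕ} {a b : F}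

/-- The coefficients of the iterates of `ω ↦ ω ^ 2` for `ω ^ 2 = a ω + b`. -/
def coefA (a : F) : ℕ → F
  | 0 => 1
  | j + 1 => coefA a j * a ^ 2 ^ j

/-- The constant coefficients of the iterates. -/
def coefB (a b : F) : ℕ → F
  | 0 => 0
  | j + 1 => b ^ 2 ^ j + coefB a b j * a ^ 2 ^ j

theorem coefA_eq (a : F) : ∀ j, a * coefA a j = a ^ 2 ^ j
  | 0 => by simp [coefA]
  | j + 1 => by
    rw [coefA, ← mul_assoc, coefA_eq a j, ← pow_add, pow_succ 2 j, mul_two]

theorem pow_two_pow (j : ℕ) (x : F) : (frobeniusEquiv F 2 ^ j) x = x ^ 2 ^ j := by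
  induction j generalizing x with
  | zero => simp
  | succ j ih => rw [pow_succ, RingAut.mul_apply, ih, frobeniusEquiv_apply, frobenius_def, ← pow_mul, ← pow_succ']

theorem aniso_a_ne_zero (hab : Aniso a b) : a ≠ 0 := by
  intro ha
  obtain ⟨w, hw⟩ := (frobeniusEquiv F 2).surjective b
  rw [frobeniusEquiv_apply, frobenius_def] at hw
  have h := (hab w 1 (by rw [ha, hw]; simp [CharTwo.add_self_eq_zero])).2
  exact one_ne_zero h

theorem coefB_ne_zero (hF : Fintype.card F = 2 ^ f) (hab : Aniso a b) : coefB a b f ≠ 0 := by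
  classical
  intro h0
  set K := AlgebraicClosure F
  set ι := algebraMap F K
  haveI : CharP K 2 := charP_of_injective_algebraMap ι.injective 2
  obtain ⟨w, hw⟩ := IsAlgClosed.exists_root (Polynomial.X ^ 2 + Polynomial.C (ι a) * Polynomial.X + Polynomial.C (ι b) : Polynomial K)
    (by
      rw [show (Polynomial.X ^ 2 + Polynomial.C (ι a) * Polynomial.X + Polynomial.C (ι b) : Polynomial K) =
        Polynomial.C 1 * Polynomial.X ^ 2 + Polynomial.C (ι a) * Polynomial.X + Polynomial.C (ι b) by simp]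
      rw [Polynomial.degree_quadratic one_ne_zero]
      decide)
  simp only [Polynomial.IsRoot.def, Polynomial.eval_add, Polynomial.eval_pow, Polynomial.eval_X, Polynomial.eval_mul,
    Polynomial.eval_C] at hw
  have hw2 : w ^ 2 = ι a * w + ι b := by
    have := CharTwo.add_self_eq_zero (ι a * w + ι b)
    linear_combination hw - this
  have hiter : ∀ j, w ^ 2 ^ j = ι (coefB a b j) + ι (coefA a j) * w := by
    intro j
    induction j with
    | zero => simp [coefA, coefB]
    | succ j ih =>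
      have h1 : (w ^ 2) ^ 2 ^ j = ι (a ^ 2 ^ j) * (w ^ 2 ^ j) + ι (b ^ 2 ^ j) := by
        rw [hw2, add_pow_char_pow, mul_pow, map_pow, map_pow]
      rw [pow_succ' 2 j, pow_mul, h1, ih, coefA, coefB, map_add, map_mul, map_mul]
      ring
  have hA : coefA a f = 1 := by
    have ha := aniso_a_ne_zero hab
    have := coefA_eq a f
    rw [← hF, FiniteField.pow_card] at this
    exact mul_left_cancel₀ ha (this.trans (mul_one a).symm)
  have hfix : w ^ Fintype.card F = w := by rw [hF, hiter, h0, hA]; simp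
  have h1 : 1 < Fintype.card F := Fintype.one_lt_card
  set P : Polynomial K := Polynomial.X ^ Fintype.card F - Polynomial.X
  have hP : P ≠ 0 := FiniteField.X_pow_card_sub_X_ne_zero K h1
  have hsub : (Finset.univ : Finset F).image ι ⊆ P.roots.toFinset := fun x hx => by
    obtain ⟨y, -, rfl⟩ := Finset.mem_image.1 hx
    rw [Multiset.mem_toFinset, Polynomial.mem_roots hP]
    simp [P, ← map_pow, FiniteField.pow_card]
  have heq : (Finset.univ : Finset F).image ι = P.roots.toFinset := by
    refine Finset.eq_of_subset_of_card_le hsub ?_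
    rw [Finset.card_image_of_injective _ ι.injective, Finset.card_univ]
    refine (Multiset.toFinset_card_le _).trans ((Polynomial.card_roots' _).trans ?_)
    rw [FiniteField.X_pow_card_sub_X_natDegree_eq K h1]
  have hmem : w ∈ P.roots.toFinset := by
    rw [Multiset.mem_toFinset, Polynomial.mem_roots hP]
    simp [P, hfix]
  rw [← heq] at hmem
  obtain ⟨z, -, hz⟩ := Finset.mem_image.1 hmem
  have hz0 : z ^ 2 + a * z * 1 + b * 1 ^ 2 = 0 := ι.injective (by
    rw [map_zero]; simp only [map_add, map_mul, map_pow, map_one, hz, one_pow, mul_one]; exact hw)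
  exact one_ne_zero (hab z 1 hz0).2

/-- The matrix of the Frobenius semisimilarity. -/
def frobMat (m : ℕ) (A B : F) : Matrix ((Fin m ⊕ Fin m) ⊕ Fin 2) ((Fin m ⊕ Fin m) ⊕ Fin 2) F :=
  fromBlocks 1 0 0 !![1, B; 0, A]

theorem frobMat_mul (m : ℕ) (A B A' B' : F) : frobMat m A B * frobMat m A' B' = frobMat m (A * A') (B' + B * A') := by
  simp only [frobMat, fromBlocks_multiply, Matrix.mul_zero, Matrix.zero_mul, add_zero, zero_add, Matrix.mul_one]
  congr 1
  ext i j
  fin_cases i <;> fin_cases j <;> simp [Matrix.mul_apply, Fin.sum_univ_two]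

theorem frobMat_mulVec_inl (m : ℕ) (A B : F) (v : (Fin m ⊕ Fin m) ⊕ Fin 2 → F) (i : Fin m ⊕ Fin m) :
    (frobMat m A B *ᵥ v) (.inl i) = v (.inl i) := by
  simp [frobMat, fromBlocks_mulVec]

theorem frobMat_mulVec_zero (m : ℕ) (A B : F) (v : (Fin m ⊕ Fin m) ⊕ Fin 2 → F) :
    (frobMat m A B *ᵥ v) (.inr 0) = v (.inr 0) + B * v (.inr 1) := by
  simp [frobMat, fromBlocks_mulVec, Matrix.mulVec, dotProduct, Fin.sum_univ_two]

theorem frobMat_mulVec_one (m : ℕ) (A B : F) (v : (Fin m ⊕ Fin m) ⊕ Fin 2 → F) :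
    (frobMat m A B *ᵥ v) (.inr 1) = A * v (.inr 1) := by
  simp [frobMat, fromBlocks_mulVec, Matrix.mulVec, dotProduct, Fin.sum_univ_two]

/-- The class of the Frobenius semisimilarity generates: its `f`-th power is not inner. -/
theorem exists_generator (hf : 1 ≤ f) (hF : Fintype.card F = 2 ^ f) (hm : 3 ≤ m) (hab : Aniso a b) :
    ∃ p : Pairs (Cfsg.quadFormMinus m F a b), p.1.2 = frobeniusEquiv F 2 ∧
      (QuotientGroup.mk (semiAut p) : Cfsg.Out (Cfsg.POmega F (Cfsg.quadFormMinus m F a b))) ^ f ≠ 1 := by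
  classical
  have ha := aniso_a_ne_zero hab
  set Φ := frobeniusEquiv F 2 with hΦ
  have hΦx : ∀ x : F, Φ x = x ^ 2 := fun x => by rw [hΦ, frobeniusEquiv_apply, frobenius_def]
  let g : GL ((Fin m ⊕ Fin m) ⊕ Fin 2) F :=
    { val := frobMat m a b
      inv := frobMat m a⁻¹ (b * a⁻¹)
      val_inv := by
        rw [frobMat_mul, mul_inv_cancel₀ ha, CharTwo.add_self_eq_zero]
        simp [frobMat, ← Matrix.one_fin_two, fromBlocks_one]
      inv_val := by
        rw [frobMat_mul, inv_mul_cancel₀ ha, mul_assoc, inv_mul_cancel₀ ha, mul_one, CharTwo.add_self_eq_zero]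
        simp [frobMat, ← Matrix.one_fin_two, fromBlocks_one] }
  have hg : Cfsg.IsSemisimilarityPair (Cfsg.quadFormMinus m F a b) g Φ := by
    refine ⟨1, fun v => ?_⟩
    show Cfsg.quadFormMinus m F a b (frobMat m a b *ᵥ fun i => Φ (v i)) = _
    simp only [Cfsg.quadFormMinus, frobMat_mulVec_inl, frobMat_mulVec_zero, frobMat_mulVec_one, Units.val_one, one_mul,
      map_add, map_sum, map_mul, map_pow]
    simp only [hΦx]
    have hd := CharTwo.two_eq_zero (R := F)
    linear_combination (b * v (.inr 0) ^ 2 * v (.inr 1) ^ 2 + b * a ^ 2 * v (.inr 1) ^ 4) * hd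
  refine ⟨⟨(g, Φ), hg⟩, rfl, fun hpow => ?_⟩
  set p : Pairs (Cfsg.quadFormMinus m F a b) := ⟨(g, Φ), hg⟩ with hp
  have hiter : ∀ j, ∃ P : Pairs (Cfsg.quadFormMinus m F a b), semiAut p ^ j = semiAut P ∧ P.1.2 = Φ ^ j ∧
      (Units.val P.1.1 : Matrix _ _ F) = frobMat m (coefA a j) (coefB a b j) := by
    intro j
    induction j with
    | zero =>
      refine ⟨⟨(1, 1), pair_one⟩, ?_, rfl, ?_⟩
      · rw [pow_zero, eq_comm, semiAut_eq_one_iff (qMinus m F a b) (qMinus_apply m a b) (nondeg_qMinus hab m)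
          (by simp; omega) (isGen_qMinus hab m)]
        exact ⟨rfl, 1, by simp⟩
      · simp [frobMat, coefA, coefB, ← Matrix.one_fin_two, fromBlocks_one]
    | succ j ih =>
      obtain ⟨P, hP, hPσ, hPg⟩ := ih
      refine ⟨pmul P p, by rw [pow_succ, hP, semiAut_pmul], ?_, ?_⟩
      · show P.1.2 * Φ = _
        rw [hPσ, pow_succ]
      · show (Units.val P.1.1 : Matrix _ _ F) * (frobMat m a b).map P.1.2 = _
        rw [hPg, hPσ, show (frobMat m a b).map ⇑(Φ ^ j) = frobMat m (a ^ 2 ^ j) (b ^ 2 ^ j) from ?_, frobMat_mul]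
        · rfl
        · simp only [frobMat, fromBlocks_map, Matrix.map_one (Φ ^ j) (map_zero _) (map_one _), Matrix.map_zero _ (map_zero _)]
          congr 1
          ext i k
          fin_cases i <;> fin_cases k <;> simp [hΦ, iterate_frobenius]
  obtain ⟨P, hP, hPσ, hPg⟩ := hiter f
  rw [← QuotientGroup.mk_pow, QuotientGroup.eq_one_iff, hP] at hpow
  have hn : 7 ≤ Fintype.card ((Fin m ⊕ Fin m) ⊕ Fin 2) := by simp; omega
  obtain ⟨c, s, hcs⟩ := exists_of_mem_inn (qMinus m F a b) (qMinus_apply m a b) (nondeg_qMinus hab m) hn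
    (isGen_qMinus hab m) hpow
  set N : Matrix ((Fin m ⊕ Fin m) ⊕ Fin 2) ((Fin m ⊕ Fin m) ⊕ Fin 2) F := frobMat m (coefA a f) (coefB a b f) with hN
  have hA : coefA a f = 1 := by
    have := coefA_eq a f
    rw [← hF, FiniteField.pow_card] at this
    exact mul_left_cancel₀ ha (this.trans (mul_one a).symm)
  rw [hPg] at hcs
  -- the scalar is trivial
  have hc : (c : F) = 1 := by
    let v₀ : (Fin m ⊕ Fin m) ⊕ Fin 2 → F := Sum.elim (fun i => if i = .inl ⟨0, by omega⟩ ∨ i = .inr ⟨0, by omega⟩ then 1 else 0) 0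
    have hNv : N *ᵥ v₀ = v₀ := by
      funext x
      rcases x with i | i
      · rw [hN, frobMat_mulVec_inl]
      · fin_cases i
        · simp [hN, frobMat_mulVec_zero, v₀]
        · simp [hN, frobMat_mulVec_one, v₀]
    have hQv : Cfsg.quadFormMinus m F a b v₀ = 1 := by
      simp only [Cfsg.quadFormMinus, v₀]
      rw [Finset.sum_eq_single (⟨0, by omega⟩ : Fin m)] <;> simp +contextual
    have hsQ : Cfsg.quadFormMinus m F a b ((Units.val s.1.1 : Matrix _ _ F) *ᵥ v₀) = 1 := (s.1.2 v₀ v₀).trans hQv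
    have h1 : Cfsg.quadFormMinus m F a b ((c : F) • ((Units.val s.1.1 : Matrix _ _ F) *ᵥ v₀)) = 1 := by
      rw [← Matrix.smul_mulVec, ← hcs, hNv, hQv]
    rw [← qMinus_apply, QuadraticMap.map_smul, qMinus_apply, hsQ, smul_eq_mul, mul_one] at h1
    exact (sub_eq_zero.1 (mul_self_eq_zero.1 (show ((c : F) - 1) * ((c : F) - 1) = 0 by
      linear_combination h1 + (1 - (c : F)) * CharTwo.two_eq_zero (R := F))))
  rw [hc, one_smul] at hcs
  -- parity
  set Q := qMinus m F a b with hQdef
  have hnd := nondeg_qMinus hab m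
  have hn5 : 5 ≤ Module.finrank F ((Fin m ⊕ Fin m) ⊕ Fin 2 → F) := by rw [Module.finrank_fintype_fun_eq_card]; omega
  have hgen : reflGroup Q = ⊤ := by
    have h := isGen_qMinus hab m
    rw [IsGen, sup_eq_left.2 (siegelGroup_le_reflGroup hnd hn5)] at h
    exact h
  let χ : Cfsg.isometryGroup F (Cfsg.quadFormMinus m F a b) →* ℤˣ :=
    (parityHom hnd hgen).comp (isoMat Q (qMinus_apply m a b)).toMonoidHom
  have hs : χ s.1 = 1 := Abelianization.commutator_subset_ker χ s.2
  set S := isoMat Q (qMinus_apply m a b) s.1 with hS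
  have hSv : ∀ v, (S : ((Fin m ⊕ Fin m) ⊕ Fin 2 → F) ≃ₗ[F] _) v = N *ᵥ v := fun v => by
    rw [hS, isoMat_apply, hcs]
  have hfix : fixSpace S = LinearMap.ker (LinearMap.proj (R := F) (φ := fun _ => F) ((Sum.inr 1 : (Fin m ⊕ Fin m) ⊕ Fin 2))) := by
    ext v
    rw [mem_fixSpace, hSv, LinearMap.mem_ker, LinearMap.proj_apply]
    constructor
    · intro h
      have h0 := congrFun h (.inr 0)
      rw [hN, frobMat_mulVec_zero, add_eq_left] at h0
      exact (mul_eq_zero.1 h0).resolve_left (coefB_ne_zero hF hab)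
    · intro h
      funext x
      rcases x with i | i
      · rw [hN, frobMat_mulVec_inl]
      · fin_cases i
        · simp [hN, frobMat_mulVec_zero, h]
        · simp [hN, frobMat_mulVec_one, h]
  have hpar : parity S = -1 := by
    have hd : Module.finrank F (fixSpace S) + 1 = Module.finrank F ((Fin m ⊕ Fin m) ⊕ Fin 2 → F) := by
      rw [hfix, add_comm]
      have h := LinearMap.finrank_range_add_finrank_ker
        (LinearMap.proj (R := F) (φ := fun _ => F) ((Sum.inr 1 : (Fin m ⊕ Fin m) ⊕ Fin 2)))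
      rwa [LinearMap.range_eq_top.2 (fun c => ⟨Pi.single (Sum.inr 1 : (Fin m ⊕ Fin m) ⊕ Fin 2) c, by simp⟩), finrank_top, Module.finrank_self] at h
    unfold CfsgLib.ClassicalForms.parity
    rw [← hd, show Module.finrank F (fixSpace S) + 1 + Module.finrank F (fixSpace S) =
      2 * Module.finrank F (fixSpace S) + 1 by ring, pow_succ, pow_mul]
    simp
  have : parity S = 1 := hs
  rw [hpar] at this
  exact absurd this (by decide)

end CfsgLib.Classes.OmegaMinusTwo
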