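import Cfsg.Agent.Lib.Forms.SympBridge
import Cfsg.Agent.Lib.Forms.UnitaryForm
import Cfsg.Agent.Lib.Forms.Hermitian
import Cfsg.Agent.Lib.ClassicalForms.Unitary.Card
import Cfsg.Agent.Lib.Generators.Hermitian
import Mathlib.RingTheory.AdjoinRoot

/-!
A fixed point free element of order three of a symplectic group over a field of `q ≡ 2 (mod 3)` elements makes
the space a Hermitian space over the field of `q ^ 2` elements; its centraliser is the unitary group.
-/

set_option autoImplicit false

open Matrix Polynomial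

namespace CfsgLib.Classes

universe u

variable {F : Type u} [Field F]

/-- `X² + X + 1` is irreducible when `q ≡ 2 (mod 3)`. -/
theorem irreducible_cyclotomic_three [Fintype F] {q : ℕ} (hF : Fintype.card F = q) (hq : q % 3 = 2) :
    Irreducible (X ^ 2 + X + 1 : F[X]) := by
  have hdeg : (X ^ 2 + X + 1 : F[X]).natDegree = 2 := by compute_degree!
  refine (Polynomial.irreducible_iff_roots_eq_zero_of_degree_le_three (by omega) (by omega)).mpr ?_
  by_contra h
  obtain ⟨a, ha⟩ := Multiset.exists_mem_of_ne_zero h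
  rw [Polynomial.mem_roots (fun h0 => by rw [h0] at hdeg; simp at hdeg)] at ha
  simp only [IsRoot.def, eval_add, eval_pow, eval_X, eval_one] at ha
  have ha3 : a ^ 3 = 1 := by linear_combination (a - 1) * ha
  have ha0 : a ≠ 0 := fun h0 => by rw [h0] at ha; simp at ha
  have ha1 : a = 1 := by
    have h1 : a ^ (q - 1) = 1 := by rw [← hF]; exact FiniteField.pow_card_sub_one_eq_one a ha0
    have h3 : a ^ (q - 1) = a := by
      conv_lhs => rw [show q - 1 = 3 * (q / 3) + 1 by omega, pow_succ, pow_mul, ha3, one_pow, one_mul]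
    rw [← h3, h1]
  have h3z : (3 : F) = 0 := by rw [ha1] at ha; linear_combination ha
  have hcast : ((q % 3 : ℕ) : F) = 0 := by
    have h0 : (q : F) = 0 := by rw [← hF]; exact Nat.cast_card_eq_zero F
    rw [← Nat.div_add_mod q 3, Nat.cast_add, Nat.cast_mul, Nat.cast_ofNat, h3z, zero_mul, zero_add] at h0
    exact h0
  rw [hq, Nat.cast_ofNat] at hcast
  exact one_ne_zero (show (1 : F) = 0 by linear_combination h3z - hcast)

/-- Orders of unitary groups with integer signs. -/
theorem card_gu_int {K : Type*} [Field K] [Finite K] {q : ℕ} (hK : Nat.card K = q ^ 2) (m : ℕ) :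
    (Nat.card (Cfsg.GU m K q) : ℤ) =
      (q : ℤ) ^ (m * (m - 1) / 2) * ∏ i : Fin m, ((q : ℤ) ^ ((i : ℕ) + 1) - (-1) ^ ((i : ℕ) + 1)) := by
  rw [ClassicalForms.card_gu hK m, Nat.cast_mul, Nat.cast_pow, Nat.cast_prod,
    Fin.prod_univ_eq_prod_range (fun i => ((q : ℤ) ^ (i + 1) - (-1) ^ (i + 1))) m]
  refine congrArg _ (Finset.prod_congr rfl fun i _ => ?_)
  split_ifs with h
  · rw [(show Odd (i + 1) from h.add_one).neg_one_pow]
    push_cast
    ring
  · rw [(show Even (i + 1) from (Nat.not_even_iff_odd.mp h).add_one).neg_one_pow]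
    have hq : 1 ≤ q ^ (i + 1) := Nat.one_le_pow _ _ (Nat.pos_of_ne_zero fun h0 => by
      have := Nat.card_pos (α := K)
      rw [hK, h0] at this; simp at this)
    rw [Nat.cast_sub hq]
    push_cast
    ring

set_option maxHeartbeats 1600000 in
/-- The centraliser of a fixed point free element of order three is a unitary group. -/
theorem card_centralizer_order_three [Fintype F] {q : ℕ} (hF : Fintype.card F = q) (hq : q % 3 = 2) {m : ℕ}
    (x : Matrix.symplecticGroup (Fin m) F)
    (hxp : (x : Matrix (Fin m ⊕ Fin m) (Fin m ⊕ Fin m) F) * x + x + 1 = 0) :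
    (Nat.card ↥(Subgroup.centralizer ({x} : Set ↥(Matrix.symplecticGroup (Fin m) F))) : ℤ) =
      (q : ℤ) ^ (m * (m - 1) / 2) * ∏ i : Fin m, ((q : ℤ) ^ ((i : ℕ) + 1) - (-1) ^ ((i : ℕ) + 1)) := by
  classical
  set φ : F[X] := X ^ 2 + X + 1 with hφ
  haveI : Fact (Irreducible φ) := ⟨irreducible_cyclotomic_three hF hq⟩
  have hφ0 : φ ≠ 0 := (Fact.out : Irreducible φ).ne_zero
  have hdeg : φ.natDegree = 2 := by rw [hφ]; compute_degree!
  let K := AdjoinRoot φ
  haveI : Module.Finite F K := (AdjoinRoot.powerBasis hφ0).finite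
  have hfinK : Module.finrank F K = 2 := by rw [(AdjoinRoot.powerBasis hφ0).finrank]; exact hdeg
  haveI : Finite K := Module.finite_of_finite F
  have hK : Nat.card K = q ^ 2 := by
    rw [Module.natCard_eq_pow_finrank (K := F) (V := K), hfinK, Nat.card_eq_fintype_card, hF]
  set ω : K := AdjoinRoot.root φ with hω
  have hωp : ω ^ 2 + ω + 1 = 0 := by
    have := AdjoinRoot.eval₂_root φ
    simpa [hφ] using this
  have hω3 : ω ^ 3 = 1 := by linear_combination (ω - 1) * hωp
  -- the module structure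
  let V := Fin m ⊕ Fin m → F
  let T : Module.End F V := Matrix.toLin' (x : Matrix (Fin m ⊕ Fin m) (Fin m ⊕ Fin m) F)
  have hT : aeval T φ = 0 := by
    have h := congrArg (Matrix.toLinAlgEquiv' (R := F)) hxp
    simp only [map_add, map_mul, map_one, map_zero] at h
    simp only [hφ, map_add, map_one, pow_two, map_mul, aeval_X]
    exact h
  let f : K →ₐ[F] Module.End F V := Ideal.Quotient.liftₐ (Ideal.span {φ}) (Polynomial.aeval T) fun g hg => by
    obtain ⟨g', rfl⟩ := Ideal.mem_span_singleton.mp hg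
    rw [map_mul, hT, zero_mul]
  letI : Module K V := Module.compHom V f.toRingHom
  have hsmul : ∀ (k : K) (v : V), k • v = f k v := fun _ _ => rfl
  haveI : IsScalarTower F K V := ⟨fun c k v => by rw [hsmul, hsmul, map_smul, LinearMap.smul_apply]⟩
  haveI : SMulCommClass F K V := ⟨fun c k v => by rw [hsmul, hsmul, map_smul]⟩
  haveI : SMulCommClass K F V := SMulCommClass.symm F K V
  haveI : Module.Finite K V := Module.Finite.of_restrictScalars_finite F K V
  have hdim : Module.finrank K V = m := by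
    have h := Module.finrank_mul_finrank F K V
    rw [hfinK, Module.finrank_pi] at h
    simp only [Fintype.card_sum, Fintype.card_fin] at h
    omega
  have hωv : ∀ v : V, ω • v = (x : Matrix (Fin m ⊕ Fin m) (Fin m ⊕ Fin m) F) *ᵥ v := fun v => by
    rw [hsmul, hω, show f (AdjoinRoot.root φ) = T from Polynomial.aeval_X T]
    rfl
  have hcoords : ∀ k : K, ∃ a b : F, k = algebraMap F K a + algebraMap F K b * ω := fun k => by
    obtain ⟨g, hg⟩ := AdjoinRoot.mk_surjective k
    have hmod : AdjoinRoot.mk φ (g %ₘ φ) = k := by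
      rw [← hg, AdjoinRoot.mk_eq_mk]
      exact ⟨-(g /ₘ φ), by linear_combination Polynomial.modByMonic_add_div g φ⟩
    have hlt : (g %ₘ φ).natDegree < 2 := by
      refine lt_of_lt_of_eq (Polynomial.natDegree_modByMonic_lt g (by rw [hφ]; monicity!) fun h1 => ?_) hdeg
      rw [h1] at hdeg; simp at hdeg
    obtain ⟨b, a, hab⟩ := Polynomial.exists_eq_X_add_C_of_natDegree_le_one (by omega : (g %ₘ φ).natDegree ≤ 1)
    refine ⟨a, b, ?_⟩
    rw [← hmod, hab, map_add, map_mul, AdjoinRoot.mk_C, AdjoinRoot.mk_C, AdjoinRoot.mk_X, add_comm]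
    rfl
  have hlin : ∀ a b : F, algebraMap F K a + algebraMap F K b * ω = 0 → a = 0 ∧ b = 0 := fun a b h => by
    by_cases hb : b = 0
    · subst hb
      rw [map_zero, zero_mul, add_zero, map_eq_zero] at h
      exact ⟨h, rfl⟩
    exfalso
    have hωa : ω = algebraMap F K (-a / b) := by
      have hb' : algebraMap F K b ≠ 0 := by rwa [ne_eq, map_eq_zero]
      rw [map_div₀, map_neg, eq_div_iff hb']
      linear_combination h
    have h0 : algebraMap F K ((-a / b) ^ 2 + (-a / b) + 1) = 0 := by
      rw [map_add, map_add, map_pow, map_one, ← hωa]; exact hωp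
    rw [map_eq_zero] at h0
    have h1 := (Polynomial.irreducible_iff_roots_eq_zero_of_degree_le_three (p := φ) (by omega) (by omega)).mp Fact.out
    have h3 : (-a / b) ∈ φ.roots := (Polynomial.mem_roots hφ0).mpr (by simp [hφ, h0])
    rw [h1] at h3
    exact Multiset.notMem_zero _ h3
  -- the conjugation
  let _instK : Fintype K := Fintype.ofFinite K
  obtain ⟨σ, hσ, hσ2⟩ := Generators.exists_frobenius_half (K := K) (q := q)
    (by rw [← Nat.card_eq_fintype_card, hK])
  have hσF : ∀ a : F, σ (algebraMap F K a) = algebraMap F K a := fun a => by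
    rw [hσ, ← map_pow, ← hF, FiniteField.pow_card]
  have hσω : σ ω = -1 - ω := by
    rw [hσ, show q = 3 * (q / 3) + 2 by omega, pow_add, pow_mul, hω3, one_pow, one_mul]
    linear_combination hωp
  have hσne : σ ≠ RingHom.id K := fun h => by
    have h1 : σ ω = ω := by rw [h]; rfl
    rw [hσω] at h1
    have h2 : algebraMap F K 1 + algebraMap F K 2 * ω = 0 := by
      rw [map_one, map_ofNat]; linear_combination -h1
    exact one_ne_zero (hlin _ _ h2).1
  -- the Hermitian form
  let B := Omega.sympBilin m F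
  have hBalt : ∀ u v, B u v = -B v u := fun u v => (LinearMap.IsAlt.neg (Forms.sympBilin_isAlt m F) v u).symm
  have hBx : ∀ u v, B (ω • u) (ω • v) = B u v := fun u v => by
    rw [hωv, hωv, Omega.sympBilin_apply, Omega.sympBilin_apply, Omega.sympForm_mulVec_of_mem x.2]
  have hωω : ∀ v : V, ω • ω • v = -(ω • v) - v := fun v => by
    rw [smul_smul, show ω * ω = -ω + -1 by linear_combination hωp, add_smul, neg_smul, neg_smul, one_smul,
      ← sub_eq_add_neg]
  have hBl : ∀ u v, B (ω • u) v = -B u (ω • v) - B u v := fun u v => by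
    have h1 := hBx u (ω • ω • v)
    rw [show ω • ω • ω • v = v by rw [smul_smul, smul_smul, show ω * ω * ω = 1 by linear_combination hω3, one_smul],
      hωω, map_sub, map_neg] at h1
    exact h1
  let h₀ : V → V → K := fun u v =>
    algebraMap F K (B u (ω • v) + B u v) + algebraMap F K (B u v) * ω
  have hadd_r : ∀ u v w, h₀ u (v + w) = h₀ u v + h₀ u w := fun u v w => by
    simp only [h₀, smul_add, map_add]; ring
  have hadd_l : ∀ u v w, h₀ (u + v) w = h₀ u w + h₀ v w := fun u v w => by
    simp only [h₀, map_add, LinearMap.add_apply]; ring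
  have hF_r : ∀ (a : F) u v, h₀ u (a • v) = algebraMap F K a * h₀ u v := fun a u v => by
    simp only [h₀]
    rw [(smul_comm ω a v : ω • a • v = a • ω • v), LinearMap.map_smul (B u) a (ω • v), LinearMap.map_smul (B u) a v,
      smul_eq_mul, smul_eq_mul, map_add, map_add, map_mul, map_mul]
    ring
  have hω_r : ∀ u v, h₀ u (ω • v) = ω * h₀ u v := fun u v => by
    simp only [h₀]
    rw [hωω, map_sub, map_neg]
    simp only [map_add, map_sub, map_neg]
    linear_combination (-(algebraMap F K (B u v))) * hωp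
  have hherm : ∀ u v, σ (h₀ u v) = h₀ v u := fun u v => by
    simp only [h₀, map_add, map_mul, hσF, hσω]
    rw [hBalt v u, hBalt v (ω • u), hBl]
    simp only [map_neg, map_sub]
    ring
  have hsmul_r : ∀ (k : K) u v, h₀ u (k • v) = k * h₀ u v := fun k u v => by
    obtain ⟨a, b, rfl⟩ := hcoords k
    rw [add_smul, mul_smul, algebraMap_smul, algebraMap_smul, hadd_r, hF_r, hF_r, hω_r]
    ring
  let H : V →ₛₗ[σ] V →ₗ[K] K :=
    LinearMap.mk₂'ₛₗ σ (RingHom.id K) h₀ hadd_l
      (fun k u v => by
        show h₀ (k • u) v = σ k * h₀ u v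
        rw [← hherm v, hsmul_r, map_mul, hherm])
      hadd_r (fun k u v => hsmul_r k u v)
  have hH : ∀ u v, H u v = h₀ u v := fun u v => rfl
  have hHB : ∀ u v u' v', H u v = H u' v' → B u v = B u' v' := fun u v u' v' h => by
    rw [hH, hH] at h
    have := (hlin ((B u (ω • v) + B u v) - (B u' (ω • v') + B u' v')) (B u v - B u' v') (by
      rw [map_sub, map_sub]; linear_combination h)).2
    exact sub_eq_zero.mp this
  have hHsymm : H.IsSymm := ⟨fun u v => hherm u v⟩
  have hHl : ∀ u, (∀ v, H u v = 0) → u = 0 := fun u hu =>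
    (Forms.sympBilin_nondeg m F).1 u fun v => by
      have := hHB u v 0 0 (by rw [hu v, map_zero])
      simpa using this
  have hHnd : H.Nondegenerate := ⟨hHl, fun v hv => hHl v fun u => by rw [← hHsymm.eq u v, hv u, map_zero]⟩
  obtain ⟨e, he⟩ := Forms.hermitian_isometric σ hσne hσ2 H hHsymm hHnd (Forms.hermBundled m σ)
    (Forms.hermBundled_isSymm hσ2) (Forms.hermBundled_nondegenerate hσ2)
    (by rw [hdim, Module.finrank_fin_fun])
  have hform : ∀ u v, Cfsg.hermForm m K q u v = Forms.hermBundled m σ v u := fun u v =>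
    (Forms.hermBundled_apply hσ u v).symm
  -- the bijection
  have hcomm : ∀ g : ↥(Subgroup.centralizer ({x} : Set ↥(Matrix.symplecticGroup (Fin m) F))), ∀ (k : K) (v : V),
      ((g : Matrix.symplecticGroup (Fin m) F) : Matrix (Fin m ⊕ Fin m) (Fin m ⊕ Fin m) F) *ᵥ (k • v) =
      k • (((g : Matrix.symplecticGroup (Fin m) F) : Matrix (Fin m ⊕ Fin m) (Fin m ⊕ Fin m) F) *ᵥ v) := by
    intro g k v
    let G : V →ₗ[F] V := Matrix.toLin' ((g : Matrix.symplecticGroup (Fin m) F) : Matrix (Fin m ⊕ Fin m) (Fin m ⊕ Fin m) F)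
    have hG : ∀ w : V, G (ω • w) = ω • G w := fun w => by
      rw [hωv, hωv]
      show ((g : Matrix.symplecticGroup (Fin m) F) : Matrix (Fin m ⊕ Fin m) (Fin m ⊕ Fin m) F) *ᵥ _ = _ *ᵥ (_ *ᵥ w)
      rw [Matrix.mulVec_mulVec, Matrix.mulVec_mulVec]
      exact congrArg (· *ᵥ w) (congrArg Subtype.val (Subgroup.mem_centralizer_singleton_iff.mp g.2))
    obtain ⟨a, b, rfl⟩ := hcoords k
    show G _ = _ • G v
    rw [add_smul, mul_smul, algebraMap_smul, algebraMap_smul, map_add, map_smul, map_smul, hG, add_smul, mul_smul,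
      algebraMap_smul, algebraMap_smul]
  let gk : ↥(Subgroup.centralizer ({x} : Set ↥(Matrix.symplecticGroup (Fin m) F))) → (V →ₗ[K] V) := fun g =>
    { toFun := fun v => ((g : Matrix.symplecticGroup (Fin m) F) : Matrix (Fin m ⊕ Fin m) (Fin m ⊕ Fin m) F) *ᵥ v
      map_add' := fun v w => Matrix.mulVec_add _ v w
      map_smul' := fun k v => hcomm g k v }
  let M : ↥(Subgroup.centralizer ({x} : Set ↥(Matrix.symplecticGroup (Fin m) F))) → Matrix (Fin m) (Fin m) K :=
    fun g => LinearMap.toMatrix' (e.toLinearMap ∘ₗ gk g ∘ₗ e.symm.toLinearMap)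
  have hMv : ∀ g y, M g *ᵥ y = e (gk g (e.symm y)) := fun g y => LinearMap.toMatrix'_mulVec _ y
  have hBgk : ∀ g u v, B (gk g u) (gk g v) = B u v := fun g u v => by
    rw [Omega.sympBilin_apply, Omega.sympBilin_apply]
    exact Omega.sympForm_mulVec_of_mem g.1.2 u v
  have hHgk : ∀ g u v, H (gk g u) (gk g v) = H u v := fun g u v => by
    rw [hH, hH]
    simp only [h₀]
    rw [← (gk g).map_smul ω v, hBgk, hBgk]
  have hMherm : ∀ g u v, Cfsg.hermForm m K q (M g *ᵥ u) (M g *ᵥ v) = Cfsg.hermForm m K q u v := fun g u v => by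
    rw [hform, hform, hMv, hMv, he, hHgk, ← he, e.apply_symm_apply, e.apply_symm_apply]
  have hMdet : ∀ g, (M g).det ≠ 0 := fun g => by
    intro h0
    obtain ⟨y, hy0, hy⟩ := Matrix.exists_mulVec_eq_zero_iff.mpr h0
    refine hy0 ((Forms.hermBundled_nondegenerate hσ2).1 y fun u => ?_)
    rw [← hform, ← hMherm g, hy, hform, map_zero, LinearMap.zero_apply]
  let Φ : ↥(Subgroup.centralizer ({x} : Set ↥(Matrix.symplecticGroup (Fin m) F))) → Cfsg.GU m K q := fun g =>
    ⟨Matrix.GeneralLinearGroup.mkOfDetNeZero (M g) (hMdet g), fun u v => hMherm g u v⟩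
  have hbij : Function.Bijective Φ := by
    refine ⟨fun g g' h => ?_, fun N => ?_⟩
    · have h' : M g = M g' := congrArg (fun z : Cfsg.GU m K q => ((z : GL (Fin m) K) : Matrix (Fin m) (Fin m) K)) h
      refine Subtype.ext (Subtype.ext (Matrix.ext_of_mulVec_single fun i => e.injective ?_))
      have := hMv g (e (Pi.single i 1))
      rw [h', hMv, e.symm_apply_apply] at this
      exact this.symm
    · let L : V ≃ₗ[K] V := e.trans ((Matrix.GeneralLinearGroup.toLin.trans
        (LinearMap.GeneralLinearGroup.generalLinearEquiv K (Fin m → K)) (N : GL (Fin m) K)).trans e.symm)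
      have hL : ∀ v, e (L v) = ((N : GL (Fin m) K) : Matrix (Fin m) (Fin m) K) *ᵥ e v := fun v =>
        e.apply_symm_apply _
      have hLH : ∀ u v, H (L u) (L v) = H u v := fun u v => by
        rw [← he, ← he, hL, hL, ← hform, ← hform]
        exact N.2 _ _
      let g₀ : Matrix.symplecticGroup (Fin m) F := Forms.spOfEquiv (L.restrictScalars F) fun u v => by
        rw [← Omega.sympBilin_apply, ← Omega.sympBilin_apply]
        exact hHB _ _ _ _ (hLH u v)
      have hg₀ : g₀ ∈ Subgroup.centralizer ({x} : Set ↥(Matrix.symplecticGroup (Fin m) F)) := by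
        refine Subgroup.mem_centralizer_singleton_iff.mpr (Subtype.ext (Matrix.ext_of_mulVec_single fun i => ?_))
        rw [Submonoid.coe_mul, Submonoid.coe_mul, ← Matrix.mulVec_mulVec, ← Matrix.mulVec_mulVec,
          Forms.spOfEquiv_mulVec, Forms.spOfEquiv_mulVec, ← hωv, ← hωv]
        exact L.map_smul ω _
      refine ⟨⟨g₀, hg₀⟩, Subtype.ext (Units.ext (Matrix.ext_of_mulVec_single fun i => ?_))⟩
      show M ⟨g₀, hg₀⟩ *ᵥ _ = _
      rw [hMv]
      show e ((g₀ : Matrix _ _ F) *ᵥ e.symm _) = _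
      rw [Forms.spOfEquiv_mulVec]
      show e (L (e.symm _)) = _
      rw [hL, e.apply_symm_apply]
  rw [Nat.card_eq_of_bijective Φ hbij, card_gu_int hK]

end CfsgLib.Classes
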