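import Cfsg.Agent.Lib.Classes.InvolutionTwo

/-!
The order of the group of matrices with `A * Aᵀ = 1` over a finite field of characteristic two.
-/

set_option autoImplicit false
set_option linter.style.haveILetI false

namespace CfsgLib.Classes.InvTwo

open scoped Matrix

variable {F : Type*} [Field F] [Fintype F] [CharP F 2]

/-- Matrices with orthonormal rows. -/
abbrev OrthoMat (F : Type*) [Field F] (n : ℕ) := {A : Matrix (Fin n) (Fin n) F // A * Aᵀ = 1}

omit [Fintype F] in
theorem dot_self {n : ℕ} (v : Fin n → F) : v ⬝ᵥ v = (∑ i, v i) ^ 2 := by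
  rw [sum_pow_char 2]
  simp [dotProduct, sq]

omit [Fintype F] in
theorem dot_self_eq_one_iff {n : ℕ} (v : Fin n → F) : v ⬝ᵥ v = 1 ↔ ∑ i, v i = 1 := by
  rw [dot_self, sq, mul_self_eq_one_iff, CharTwo.neg_eq, or_self]

omit [Fintype F] [CharP F 2] in
theorem ortho_rows {n : ℕ} (A : OrthoMat F n) (i j : Fin n) :
    A.1 i ⬝ᵥ A.1 j = if i = j then 1 else 0 := by
  simpa [Matrix.mul_apply, dotProduct, Matrix.one_apply] using congrFun (congrFun A.2 i) j

/-- The vectors which start an orthonormal basis. -/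
theorem exists_orthoMat_iff {n : ℕ} (e : Fin (n + 1) → F) :
    (∃ A : OrthoMat F (n + 1), A.1 0 = e) ↔ ∑ i, e i = 1 ∧ (n = 0 ∨ e ≠ fun _ => 1) := by
  classical
  constructor
  · rintro ⟨A, rfl⟩
    have h1 := (dot_self_eq_one_iff _).1 ((ortho_rows A 0 0).trans (if_pos rfl))
    refine ⟨h1, or_iff_not_imp_left.2 fun hn he => ?_⟩
    have h2 := (dot_self_eq_one_iff _).1 ((ortho_rows A ⟨1, by omega⟩ ⟨1, by omega⟩).trans (if_pos rfl))
    have h3 := ortho_rows A 0 ⟨1, by omega⟩
    rw [if_neg (by simp [Fin.ext_iff]), he] at h3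
    simp only [dotProduct, one_mul] at h3
    exact zero_ne_one (h3.symm.trans h2)
  · rintro ⟨hsum, hne⟩
    let β : LinearMap.BilinForm F (Fin (n + 1) → F) := Matrix.toBilin' 1
    have hβ : ∀ u v, β u v = u ⬝ᵥ v := fun u v => by simp [β, Matrix.toBilin'_apply']
    have hS : β.IsSymm := ⟨fun u v => by rw [hβ, hβ, dotProduct_comm]⟩
    have hee : β e e = 1 := by rw [hβ]; exact (dot_self_eq_one_iff e).2 hsum
    have hnd : ∀ w ∈ (⊤ : Submodule F (Fin (n + 1) → F)),
        (∀ w' ∈ (⊤ : Submodule F (Fin (n + 1) → F)), β w w' = 0) → w = 0 := fun w _ h => by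
      funext i
      simpa [hβ] using h (Pi.single i 1) trivial
    obtain ⟨hd, hnd'⟩ := CfsgLib.Forms.symm_split β hS ⊤ e trivial (by rw [hee]; exact one_ne_zero) hnd
    rw [finrank_top, Module.finrank_fin_fun] at hd
    obtain ⟨x, hxW, hx⟩ : ∃ x : Fin n → Fin (n + 1) → F, (∀ i, x i ∈ ⊤ ⊓ LinearMap.ker (β e)) ∧
        ∀ i j, β (x i) (x j) = if i = j then 1 else 0 := by
      rcases hne with rfl | hne
      · exact ⟨Fin.elim0, fun i => i.elim0, fun i => i.elim0⟩
      by_cases hn : n = 0
      · subst hn; exact ⟨Fin.elim0, fun i => i.elim0, fun i => i.elim0⟩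
      refine exists_orthonormal β hS n _ (by omega) hnd' ?_
      obtain ⟨a, b, hab⟩ : ∃ a b, e a ≠ e b := by
        by_contra hall
        push Not at hall
        apply hne
        have hc : ((n + 1 : ℕ) : F) * e 0 = 1 := by
          rw [← hsum, Finset.sum_congr rfl fun i _ => hall i 0]; simp
        have he0 : e 0 = 1 := by
          rcases (show (n + 1) % 2 = 0 ∨ (n + 1) % 2 = 1 by omega) with h | h
          · rw [CharTwo.natCast_eq_mod, h, Nat.cast_zero, zero_mul] at hc; exact absurd hc zero_ne_one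
          · rw [CharTwo.natCast_eq_mod, h, Nat.cast_one, one_mul] at hc; exact hc
        exact funext fun i => (hall i 0).trans he0
      refine ⟨e b • Pi.single a 1 + e a • Pi.single b 1, ⟨trivial, ?_⟩, ?_⟩
      · rw [SetLike.mem_coe, LinearMap.mem_ker, hβ]
        simp only [dotProduct_add, dotProduct_smul, dotProduct_single, mul_one, smul_eq_mul]
        rw [mul_comm, CharTwo.add_self_eq_zero]
      · rw [hβ, dot_self]
        simp only [Pi.add_apply, Pi.smul_apply, smul_eq_mul, Finset.sum_add_distrib, ← Finset.mul_sum,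
          Finset.sum_pi_single', Finset.mem_univ, if_true, mul_one]
        refine pow_ne_zero 2 fun h => hab ?_
        rw [add_eq_zero_iff_eq_neg, CharTwo.neg_eq] at h
        exact h.symm
    refine ⟨⟨Matrix.of (Fin.cons e x), ?_⟩, rfl⟩
    ext i j
    have key : β (Fin.cons (α := fun _ => Fin (n + 1) → F) e x i) (Fin.cons (α := fun _ => Fin (n + 1) → F) e x j)
        = if i = j then 1 else 0 := by
      refine Fin.cases ?_ (fun i => ?_) i <;> refine Fin.cases ?_ (fun j => ?_) j
      · simpa using hee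
      · simpa [(Fin.succ_ne_zero j).symm] using LinearMap.mem_ker.mp (hxW j).2
      · simpa [Fin.succ_ne_zero, hS.eq (x i) e] using LinearMap.mem_ker.mp (hxW i).2
      · simpa using hx i j
    rw [hβ] at key
    simpa [Matrix.mul_apply, dotProduct, Matrix.one_apply] using key

omit [Fintype F] [CharP F 2] in
/-- The completions of a vector to an orthonormal basis form a coset of the smaller group. -/
theorem card_completions {n : ℕ} (A₀ : OrthoMat F (n + 1)) :
    Nat.card {A : OrthoMat F (n + 1) // A.1 0 = A₀.1 0} = Nat.card (OrthoMat F n) := by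
  classical
  have hA₀ : A₀.1ᵀ * A₀.1 = 1 := mul_eq_one_comm.1 A₀.2
  let fix : Type _ := {B : OrthoMat F (n + 1) // B.1 0 = Pi.single 0 1}
  have e1 : {A : OrthoMat F (n + 1) // A.1 0 = A₀.1 0} ≃ fix :=
  { toFun := fun A => ⟨⟨A.1.1 * A₀.1ᵀ, by
        rw [Matrix.transpose_mul, Matrix.transpose_transpose, Matrix.mul_assoc, ← Matrix.mul_assoc A₀.1ᵀ, hA₀,
          Matrix.one_mul, A.1.2]⟩, by
        funext j
        show (A.1.1 * A₀.1ᵀ) 0 j = _
        rw [Matrix.mul_apply]
        simp only [Matrix.transpose_apply, congrFun A.2]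
        rw [← dotProduct, ortho_rows A₀]
        simp [Pi.single_apply, eq_comm]⟩
    invFun := fun B => ⟨⟨B.1.1 * A₀.1, by
        rw [Matrix.transpose_mul, Matrix.mul_assoc, ← Matrix.mul_assoc A₀.1, A₀.2, Matrix.one_mul, B.1.2]⟩, by
        funext j
        show (B.1.1 * A₀.1) 0 j = _
        rw [Matrix.mul_apply]
        simp [congrFun B.2, Pi.single_apply]⟩
    left_inv := fun A => by
      apply Subtype.ext; apply Subtype.ext
      show A.1.1 * A₀.1ᵀ * A₀.1 = A.1.1
      rw [Matrix.mul_assoc, hA₀, Matrix.mul_one]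
    right_inv := fun B => by
      apply Subtype.ext; apply Subtype.ext
      show B.1.1 * A₀.1 * A₀.1ᵀ = B.1.1
      rw [Matrix.mul_assoc, A₀.2, Matrix.mul_one] }
  rw [Nat.card_congr e1]
  have hcol : ∀ (B : fix) (i : Fin (n + 1)), B.1.1 i 0 = if i = 0 then 1 else 0 := fun B i => by
    have := ortho_rows B.1 i 0
    rw [B.2, dotProduct_single, mul_one] at this
    exact this
  let e2 : fix ≃ OrthoMat F n :=
  { toFun := fun B => ⟨B.1.1.submatrix Fin.succ Fin.succ, by
      ext i j
      have := congrFun (congrFun B.1.2 i.succ) j.succ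
      rw [Matrix.mul_apply, Fin.sum_univ_succ] at this
      simpa [Matrix.mul_apply, hcol B, Fin.succ_ne_zero, Matrix.one_apply] using this⟩
    invFun := fun C => ⟨⟨Matrix.of (Fin.cons (Pi.single 0 1) fun i => Fin.cons 0 (C.1 i)), by
      ext i j
      refine Fin.cases ?_ (fun i => ?_) i <;> refine Fin.cases ?_ (fun j => ?_) j
      · simp [Matrix.mul_apply, Fin.sum_univ_succ]
      · simp [Matrix.mul_apply, Fin.sum_univ_succ, (Fin.succ_ne_zero j).symm]
      · simp [Matrix.mul_apply, Fin.sum_univ_succ, Fin.succ_ne_zero]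
      · have := congrFun (congrFun C.2 i) j
        simpa [Matrix.mul_apply, Fin.sum_univ_succ, Matrix.one_apply] using this⟩, by
      funext j; simp⟩
    left_inv := fun B => by
      apply Subtype.ext; apply Subtype.ext
      ext i j
      refine Fin.cases ?_ (fun i => ?_) i
      · simp [congrFun B.2]
      · refine Fin.cases ?_ (fun j => ?_) j
        · simp [hcol B, Fin.succ_ne_zero]
        · simp
    right_inv := fun C => by
      apply Subtype.ext
      ext i j
      simp }
  exact Nat.card_congr e2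

omit [CharP F 2] in
/-- The vectors of coordinate sum one. -/
theorem card_sum_eq_one (n : ℕ) :
    Nat.card {e : Fin (n + 1) → F // ∑ i, e i = 1} = Fintype.card F ^ n := by
  classical
  let e : {e : Fin (n + 1) → F // ∑ i, e i = 1} ≃ (Fin n → F) :=
  { toFun := fun e i => e.1 i.succ
    invFun := fun t => ⟨Fin.cons (1 - ∑ i, t i) t, by simp [Fin.sum_univ_succ]⟩
    left_inv := fun e => by
      apply Subtype.ext
      funext i
      refine Fin.cases ?_ (fun i => ?_) i
      · have := e.2
        rw [Fin.sum_univ_succ] at this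
        simp [← this]
      · simp
    right_inv := fun t => by funext i; simp }
  rw [Nat.card_congr e, Nat.card_eq_fintype_card, Fintype.card_fun, Fintype.card_fin]

/-- The recursion for the number of orthonormal bases. -/
theorem card_orthoMat_succ (n : ℕ) :
    Nat.card (OrthoMat F (n + 1)) =
      (if Even n ∧ n ≠ 0 then Fintype.card F ^ n - 1 else Fintype.card F ^ n) * Nat.card (OrthoMat F n) := by
  classical
  have e := Equiv.sigmaFiberEquiv fun A : OrthoMat F (n + 1) => A.1 0
  rw [← Nat.card_congr e, Nat.card_sigma,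
    ← Finset.sum_filter_add_sum_filter_not Finset.univ fun v => ∑ i, v i = 1 ∧ (n = 0 ∨ v ≠ fun _ => 1),
    Finset.sum_eq_zero (s := Finset.univ.filter fun v => ¬ _) (fun v hv => ?_), add_zero,
    Finset.sum_congr rfl (g := fun _ => Nat.card (OrthoMat F n)) (fun v hv => ?_), Finset.sum_const, smul_eq_mul]
  rotate_left
  · simp only [Finset.mem_filter, Finset.mem_univ, true_and] at hv
    obtain ⟨A, hA⟩ := (exists_orthoMat_iff v).2 hv
    rw [← hA]
    exact card_completions A
  · simp only [Finset.mem_filter, Finset.mem_univ, true_and] at hv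
    rw [Nat.card_eq_zero]
    exact Or.inl ⟨fun A => hv ((exists_orthoMat_iff v).1 ⟨A.1, A.2⟩)⟩
  congr 1
  have hcard := card_sum_eq_one (F := F) n
  rw [Nat.card_eq_fintype_card, Fintype.card_subtype] at hcard
  have hone : ∑ _i : Fin (n + 1), (1 : F) = 1 ↔ Even n := by
    rw [Finset.sum_const, Finset.card_univ, Fintype.card_fin, nsmul_one, Nat.cast_add, Nat.cast_one,
      add_eq_right, CharP.cast_eq_zero_iff F 2, even_iff_two_dvd]
  by_cases hex : Even n ∧ n ≠ 0
  · rw [if_pos hex, ← hcard,
      ← Finset.card_erase_of_mem (s := Finset.univ.filter fun v : Fin (n + 1) → F => ∑ i, v i = 1) (a := fun _ => 1)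
        (by simpa using hone.2 hex.1)]
    congr 1
    ext v
    simp [hex.2, and_comm]
  · rw [if_neg hex, ← hcard]
    congr 1
    ext v
    simp only [Finset.mem_filter, Finset.mem_univ, true_and, and_iff_left_iff_imp]
    intro hv
    by_cases hn : n = 0
    · exact Or.inl hn
    · exact Or.inr fun hv1 => hex ⟨hone.1 (by rw [hv1] at hv; exact hv), hn⟩

/-- The order of the orthogonal group of the standard form, in characteristic two. -/
theorem card_orthoMat (k : ℕ) :
    Nat.card (OrthoMat F (2 * k + 1)) =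
        Fintype.card F ^ k ^ 2 * ∏ i : Fin k, (Fintype.card F ^ (2 * ((i : ℕ) + 1)) - 1) ∧
      Nat.card (OrthoMat F (2 * k + 2)) = Fintype.card F ^ (2 * k + 1) *
        (Fintype.card F ^ k ^ 2 * ∏ i : Fin k, (Fintype.card F ^ (2 * ((i : ℕ) + 1)) - 1)) := by
  induction k with
  | zero =>
    have h0 : Nat.card (OrthoMat F 0) = 1 := by
      haveI : Nonempty (OrthoMat F 0) := ⟨⟨1, Subsingleton.elim _ _⟩⟩
      haveI : Subsingleton (OrthoMat F 0) := ⟨fun a b => Subtype.ext (Subsingleton.elim _ _)⟩
      exact Nat.card_unique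
    have h1 := card_orthoMat_succ (F := F) 0
    rw [h0] at h1
    simp only [ne_eq, not_true, and_false, if_false, pow_zero, mul_one, Nat.zero_add] at h1
    have h2 := card_orthoMat_succ (F := F) 1
    rw [h1] at h2
    simp only [Nat.not_even_one, false_and, if_false] at h2
    exact ⟨by simpa using h1, by simpa using h2⟩
  | succ k ih =>
    have h3 := card_orthoMat_succ (F := F) (2 * k + 2)
    rw [if_pos ⟨⟨k + 1, by omega⟩, by omega⟩, ih.2] at h3
    have h4 := card_orthoMat_succ (F := F) (2 * k + 3)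
    rw [if_neg (fun h => by obtain ⟨j, hj⟩ := h.1; omega), h3] at h4
    have hp : ∏ i : Fin (k + 1), (Fintype.card F ^ (2 * ((i : ℕ) + 1)) - 1) =
        (∏ i : Fin k, (Fintype.card F ^ (2 * ((i : ℕ) + 1)) - 1)) * (Fintype.card F ^ (2 * k + 2) - 1) := by
      rw [Fin.prod_univ_castSucc]; simp [mul_add]
    refine ⟨h3.trans ?_, h4.trans ?_⟩
    · rw [hp, show (k + 1) ^ 2 = 2 * k + 1 + k ^ 2 by ring, pow_add]; ring
    · rw [hp, show (k + 1) ^ 2 = 2 * k + 1 + k ^ 2 by ring, pow_add, show 2 * (k + 1) + 1 = 2 * k + 3 by ring]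
      ring

end CfsgLib.Classes.InvTwo
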