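import Mathlib
import Cfsg.Agent.Lib.SemisimpleClasses.Count
import Cfsg.Agent.Lib.Omega.SLConj

/-!
Classes of elements of prime order `r ∣ q - 1` in `PGLₙ(q)`.
-/

set_option autoImplicit false
set_option linter.style.haveILetI false

namespace CfsgLib.Classes.PGLPrime

open Polynomial Matrix

universe u

variable {F : Type u} [Field F] {n r : ℕ}

local notation "Gn" => GL (Fin n) F
local notation "Qn" => GL (Fin n) F ⧸ Subgroup.center (GL (Fin n) F)

/-- The scalar matrix as an element of `GLₙ`. -/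
abbrev scal (n : ℕ) (c : Fˣ) : GL (Fin n) F := Matrix.GeneralLinearGroup.scalar (Fin n) c

lemma coe_scal (c : Fˣ) : ((scal n c : Gn) : Matrix (Fin n) (Fin n) F) = (c : F) • 1 := by
  simp [scal, Matrix.GeneralLinearGroup.scalar, Matrix.smul_one_eq_diagonal]

lemma scal_mem_center (c : Fˣ) : scal n c ∈ Subgroup.center Gn := by
  rw [Matrix.GeneralLinearGroup.center_eq_range_scalar]
  exact ⟨c, rfl⟩

lemma scal_one : scal n (1 : Fˣ) = 1 := map_one _

lemma scal_mul (a b : Fˣ) : scal n (a * b) = scal n a * scal n b := map_mul _ _ _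

lemma scal_pow (a : Fˣ) (k : ℕ) : scal n (a ^ k) = scal n a ^ k := map_pow _ _ _

lemma commute_scal (c : Fˣ) (g : Gn) : Commute (scal n c) g :=
  (Subgroup.mem_center_iff.1 (scal_mem_center c) g).symm

lemma mk_eq_one_iff (g : Gn) : (g : Qn) = 1 ↔ ∃ c, g = scal n c := by
  rw [QuotientGroup.eq_one_iff, Matrix.GeneralLinearGroup.center_eq_range_scalar]
  exact ⟨fun ⟨c, h⟩ => ⟨c, h.symm⟩, fun ⟨c, h⟩ => ⟨c, h.symm⟩⟩

lemma isConj_mk_iff (g g' : Gn) :
    IsConj (g : Qn) (g' : Qn) ↔ ∃ (e : Gn) (a : Fˣ), e * g * e⁻¹ = scal n a * g' := by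
  rw [isConj_iff]
  constructor
  · rintro ⟨c, hc⟩
    obtain ⟨e, rfl⟩ := QuotientGroup.mk_surjective c
    have h : ((e * g * e⁻¹ * g'⁻¹ : Gn) : Qn) = 1 := by
      rw [QuotientGroup.mk_mul, QuotientGroup.mk_mul, QuotientGroup.mk_mul, QuotientGroup.mk_inv,
        QuotientGroup.mk_inv, hc, mul_inv_cancel]
    obtain ⟨a, ha⟩ := (mk_eq_one_iff _).1 h
    exact ⟨e, a, by rw [← ha, inv_mul_cancel_right]⟩
  · rintro ⟨e, a, h⟩
    refine ⟨(e : Qn), ?_⟩
    rw [← QuotientGroup.mk_inv, ← QuotientGroup.mk_mul, ← QuotientGroup.mk_mul, h, QuotientGroup.mk_mul,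
      (QuotientGroup.eq_one_iff _).2 (scal_mem_center a), one_mul]

/-! ### Characteristic polynomials of the irreducible type -/

lemma eq_pow_of_forall_factor {π : F[X]} (hπm : π.Monic) :
    ∀ (χ : F[X]), χ.Monic → (∀ ρ : F[X], ρ.Monic → Irreducible ρ → ρ ∣ χ → ρ = π) → ∃ k, χ = π ^ k := by
  intro χ
  induction h : χ.natDegree using Nat.strong_induction_on generalizing χ with
  | _ d ih =>
    intro hm hall
    by_cases hu : IsUnit χ
    · exact ⟨0, by rw [hm.eq_one_of_isUnit hu, pow_zero]⟩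
    obtain ⟨ρ, hρm, hρ, hd⟩ : ∃ ρ : F[X], ρ.Monic ∧ Irreducible ρ ∧ ρ ∣ χ :=
      Polynomial.exists_monic_irreducible_factor χ hu
    obtain rfl := hall ρ hρm hρ hd
    obtain ⟨c, rfl⟩ := hd
    have hcm : c.Monic := hρm.of_mul_monic_left hm
    obtain ⟨k, hk⟩ := ih c.natDegree (by
      rw [← h, hρm.natDegree_mul hcm]; have := hρ.natDegree_pos; omega) c rfl hcm
      fun σ hσm hσ hσd => hall σ hσm hσ (hσd.mul_left _)
    exact ⟨k + 1, by rw [hk, pow_succ']⟩

lemma charpoly_eq_pow (M : Matrix (Fin n) (Fin n) F) {π : F[X]} (hπm : π.Monic) (hπ : Irreducible π)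
    (h : aeval (Matrix.toLinAlgEquiv' M) π = 0) :
    ∃ k, M.charpoly = π ^ k ∧ n = k * π.natDegree := by
  obtain ⟨k, hk⟩ := eq_pow_of_forall_factor hπm M.charpoly (Matrix.charpoly_monic _) fun ρ hρm hρ hd => by
    have hd' : ρ ∣ LinearMap.charpoly (Matrix.toLinAlgEquiv' M) := by
      rw [show LinearMap.charpoly (Matrix.toLinAlgEquiv' M) = M.charpoly from Matrix.charpoly_toLin' M]; exact hd
    obtain ⟨v, hv, hkv⟩ := CfsgLib.SemisimpleClasses.exists_killed (Matrix.toLinAlgEquiv' M) hρ hd'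
    by_contra hne
    have hcop : IsCoprime ρ π := by
      refine (hρ.coprime_iff_not_dvd).2 fun hdvd => hne ?_
      exact Polynomial.eq_of_monic_of_associated hρm hπm (hρ.associated_of_dvd hπ hdvd)
    obtain ⟨a, b, hab⟩ := hcop
    apply hv
    have := congrArg (fun q => aeval (Matrix.toLinAlgEquiv' M) q v) hab
    simpa [map_add, map_mul, hkv, h] using this.symm
  refine ⟨k, hk, ?_⟩
  have := congrArg natDegree hk
  rwa [Matrix.charpoly_natDegree_eq_dim, Fintype.card_fin, natDegree_pow] at this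

variable [Fintype F]

section Fixed

variable {p : ℕ} [Fact p.Prime] [CharP F p]

lemma r_ne_p {r : ℕ} (hrq : r ∣ Fintype.card F - 1) (hr : r.Prime) : r.Coprime p := by
  obtain ⟨⟨e, he⟩, hp, hq⟩ := FiniteField.card F p
  change Fintype.card F = p ^ e at hq
  refine (Nat.coprime_primes hr hp).2 ?_
  rintro rfl
  have h1 : r ∣ r ^ e := dvd_pow_self r (by omega)
  have := Nat.dvd_sub h1 (hq ▸ hrq)
  have h2 : 1 ≤ r ^ e := Nat.one_le_pow _ _ hp.pos
  rw [show r ^ e - (r ^ e - 1) = 1 by omega] at this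
  exact hp.ne_one (Nat.dvd_one.1 this)

omit [CharP F p] in
lemma coprime_order {g : Gn} {c : Fˣ} (hcop : r.Coprime p) (hp : p ∣ Fintype.card F)
    (h : g ^ r = scal n c) : (orderOf g).Coprime p := by
  classical
  have h1 : g ^ (r * (Fintype.card F - 1)) = 1 := by
    have : c ^ (Fintype.card F - 1) = 1 := by
      rw [← Fintype.card_units F]; exact pow_card_eq_one
    rw [pow_mul, h, ← scal_pow, this, scal_one]
  refine Nat.Coprime.coprime_dvd_left (orderOf_dvd_of_pow_eq_one h1) (hcop.mul_left ?_)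
  have hq : 1 ≤ Fintype.card F := Fintype.card_pos
  refine Nat.Coprime.symm (((Fact.out : p.Prime).coprime_iff_not_dvd).2 fun hd => ?_)
  have := Nat.dvd_sub hp hd
  rw [show Fintype.card F - (Fintype.card F - 1) = 1 by omega] at this
  exact (Fact.out : p.Prime).ne_one (Nat.dvd_one.1 this)

/-- Elements whose `r`-th power is the same scalar without `r`-th root are conjugate. -/
theorem conj_of_pow_eq_scal (hr : r.Prime) (hcop : r.Coprime p) (hp : p ∣ Fintype.card F) {g g' : Gn} {c : Fˣ}
    (hc : ∀ b : F, b ^ r ≠ (c : F)) (hg : g ^ r = scal n c) (hg' : g' ^ r = scal n c) :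
    ∃ e : Gn, e * g * e⁻¹ = g' := by
  have hπ := X_pow_sub_C_irreducible_of_prime hr hc
  have hπm : (X ^ r - C (c : F)).Monic := monic_X_pow_sub_C _ hr.ne_zero
  have key : ∀ h : Gn, h ^ r = scal n c →
      aeval (Matrix.toLinAlgEquiv' (h : Matrix (Fin n) (Fin n) F)) (X ^ r - C (c : F)) = 0 := fun h hh => by
    rw [map_sub, map_pow, aeval_X, aeval_C, ← map_pow, ← Units.val_pow_eq_pow_val, hh, coe_scal, map_smul,
      map_one, Algebra.algebraMap_eq_smul_one, sub_self]
  obtain ⟨k, hk, hkn⟩ := charpoly_eq_pow _ hπm hπ (key g hg)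
  obtain ⟨k', hk', hkn'⟩ := charpoly_eq_pow _ hπm hπ (key g' hg')
  obtain rfl : k = k' := Nat.eq_of_mul_eq_mul_right hπ.natDegree_pos (hkn.symm.trans hkn')
  exact CfsgLib.SemisimpleClasses.exists_conj_GL p g g' (coprime_order hcop hp hg) (coprime_order hcop hp hg')
    (hk.trans hk'.symm)

include p in
/-- Elements of the irreducible type exist in dimensions divisible by `r`. -/
theorem exists_pow_eq_scal (hr : r.Prime) (hrn : r ∣ n) {c : Fˣ} (hc : ∀ b : F, b ^ r ≠ (c : F)) :
    ∃ g : Gn, g ^ r = scal n c := by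
  classical
  obtain ⟨k, rfl⟩ := hrn
  have hπ := X_pow_sub_C_irreducible_of_prime hr hc
  have hπm : (X ^ r - C (c : F)).Monic := monic_X_pow_sub_C _ hr.ne_zero
  obtain ⟨g, hg, hgc⟩ := CfsgLib.SemisimpleClasses.exists_GL_charpoly (F := F) (p := p) (n := r * k)
    (χ := (X ^ r - C (c : F)) ^ k) (hπm.pow k)
    (by rw [natDegree_pow, natDegree_X_pow_sub_C, mul_comm])
    (by
      rw [coeff_zero_eq_eval_zero, eval_pow, eval_sub, eval_pow, eval_X, eval_C, zero_pow hr.ne_zero, zero_sub]
      exact pow_ne_zero _ (neg_ne_zero.2 c.ne_zero))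
  refine ⟨g, ?_⟩
  set f : Module.End F (Fin (r * k) → F) := Matrix.toLinAlgEquiv' (g : Matrix (Fin (r * k)) (Fin (r * k)) F)
  have hs : f.IsSemisimple := CfsgLib.SemisimpleClasses.isSemisimple_of_coprime p g hg
  have hch : LinearMap.charpoly f = (X ^ r - C (c : F)) ^ k := (Matrix.charpoly_toLin' _).trans hgc
  obtain ⟨j, -, hj⟩ := (dvd_prime_pow hπ.prime k).1 (hch ▸ LinearMap.minpoly_dvd_charpoly f)
  have hj1 : j ≤ 1 := by
    by_contra hlt
    have hsq : (X ^ r - C (c : F)) * (X ^ r - C (c : F)) ∣ minpoly F f := by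
      rw [← sq]; exact (pow_dvd_pow _ (by omega : 2 ≤ j)).trans hj.symm.dvd
    exact hπ.not_isUnit (hs.minpoly_squarefree _ hsq)
  have h0 : aeval f (X ^ r - C (c : F)) = 0 := by
    obtain ⟨d, hd⟩ : minpoly F f ∣ X ^ r - C (c : F) :=
      hj.dvd.trans ((pow_dvd_pow _ hj1).trans (by rw [pow_one]))
    rw [hd, map_mul, minpoly.aeval, zero_mul]
  apply Units.ext
  apply Matrix.toLinAlgEquiv'.injective
  rw [Units.val_pow_eq_pow_val, map_pow, coe_scal, map_smul, map_one]
  rw [map_sub, map_pow, aeval_X, aeval_C, Algebra.algebraMap_eq_smul_one, sub_eq_zero] at h0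
  exact h0

end Fixed

/-! ### The diagonal type -/

/-- Multisets of exponents, not all equal. -/
def NC (r n : ℕ) : Type := {m : Sym (ZMod r) n // ∀ a, m ≠ Sym.replicate n a}

lemma map_shift_ne (s : ZMod r) (m : Sym (ZMod r) n) (h : ∀ a, m ≠ Sym.replicate n a) (a : ZMod r) :
    m.map (s + ·) ≠ Sym.replicate n a := by
  intro he
  apply h (-s + a)
  have := congrArg (Sym.map (-s + ·)) he
  rw [Sym.map_map] at this
  refine Eq.trans ?_ (this.trans (Subtype.ext ?_))
  · rw [show ((-s + ·) ∘ (s + ·)) = id from funext fun x => by simp, Sym.map_id]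
  · simp [Sym.coe_replicate, Multiset.map_replicate]

instance : AddAction (ZMod r) (NC r n) where
  vadd s m := ⟨m.1.map (s + ·), map_shift_ne s m.1 m.2⟩
  zero_vadd m := Subtype.ext (by
    show m.1.map (0 + ·) = m.1
    simp)
  add_vadd s t m := Subtype.ext (by
    show m.1.map (s + t + ·) = (m.1.map (t + ·)).map (s + ·)
    rw [Sym.map_map]
    congr 1
    funext x
    simp [add_assoc])

lemma vadd_val (s : ZMod r) (m : NC r n) : (s +ᵥ m).1 = m.1.map (s + ·) := rfl

noncomputable instance [NeZero r] : Fintype (NC r n) := by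
  classical
  unfold NC; infer_instance

omit F in
lemma exists_enum {α : Type*} (m : Sym α n) :
    ∃ v : Fin n → α, Finset.univ.val.map v = (m : Multiset α) := by
  obtain ⟨s, hs⟩ := m
  induction s using Quotient.inductionOn with
  | _ l =>
    have hl : l.length = n := by simpa using hs
    subst hl
    exact ⟨fun i => l[i], by rw [Fin.univ_val_map]; simp⟩

/-- The number of orbits of exponent multisets. -/
theorem card_orbits (hn : 1 ≤ n) (hr : r.Prime) :
    Nat.card (Quotient (AddAction.orbitRel (ZMod r) (NC r n))) * r =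
      Nat.choose (n + r - 1) (r - 1) - r + (r - 1) * (if r ∣ n then 1 else 0) := by
  classical
  haveI : Fact r.Prime := ⟨hr⟩
  haveI : NeZero r := ⟨hr.ne_zero⟩
  have h := AddAction.sum_card_fixedBy_eq_card_orbits_mul_card_addGroup (ZMod r) (NC r n)
  rw [ZMod.card] at h
  rw [Nat.card_eq_fintype_card, ← h, ← Finset.add_sum_erase _ _ (Finset.mem_univ (0 : ZMod r))]
  have hrep : Function.Injective fun a : ZMod r => Sym.replicate n a := fun a b hab => by
    have h1 : a ∈ Sym.replicate n a := Sym.mem_replicate.2 ⟨by omega, rfl⟩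
    rw [show Sym.replicate n a = Sym.replicate n b from hab] at h1
    exact (Sym.mem_replicate.1 h1).2
  have h0 : Fintype.card (AddAction.fixedBy (NC r n) (0 : ZMod r)) = Nat.choose (n + r - 1) (r - 1) - r := by
    rw [Fintype.card_congr ((Equiv.setCongr (AddAction.fixedBy_zero_eq_univ _ _)).trans (Equiv.Set.univ _))]
    have e : NC r n = {m : Sym (ZMod r) n // ¬ m ∈ Finset.univ.image fun a => Sym.replicate n a} := by
      unfold NC
      congr 1
      funext m
      simp [eq_comm]
    rw [Fintype.card_congr (Equiv.cast e), Fintype.card_subtype_compl, Fintype.card_coe,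
      Finset.card_image_of_injective _ hrep, Finset.card_univ, ZMod.card, Sym.card_sym_eq_multichoose, ZMod.card,
      Nat.multichoose_eq, show r + n - 1 = n + r - 1 by omega,
      Nat.choose_symm_of_eq_add (show n + r - 1 = n + (r - 1) by have := hr.pos; omega)]
  have hs : ∀ s ∈ Finset.univ.erase (0 : ZMod r),
      Fintype.card (AddAction.fixedBy (NC r n) s) = if r ∣ n then 1 else 0 := by
    intro s hs
    have hs0 := Finset.ne_of_mem_erase hs
    have hconst : ∀ m : NC r n, s +ᵥ m = m → ∀ a b, (m.1 : Multiset (ZMod r)).count a = (m.1 : Multiset (ZMod r)).count b := by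
      intro m hm a b
      have key : ∀ x, (m.1 : Multiset (ZMod r)).count (s + x) = (m.1 : Multiset (ZMod r)).count x := fun x => by
        have h1 := congrArg (fun t : NC r n => (t.1 : Multiset (ZMod r)).count (s + x)) hm
        simp only [vadd_val, Sym.coe_map] at h1
        rw [Multiset.count_map_eq_count' _ _ (add_right_injective s)] at h1
        exact h1.symm
      have hk : ∀ (k : ℕ) (x : ZMod r), (m.1 : Multiset (ZMod r)).count (k • s + x) = (m.1 : Multiset (ZMod r)).count x := by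
        intro k
        induction k with
        | zero => intro x; simp
        | succ k ih => intro x; rw [succ_nsmul', add_assoc, key, ih]
      have := hk ((b - a) * s⁻¹).val a
      rw [nsmul_eq_mul, ZMod.natCast_zmod_val, mul_assoc, inv_mul_cancel₀ hs0, mul_one, sub_add_cancel] at this
      exact this.symm
    have hsum : ∀ m : NC r n, s +ᵥ m = m → ∀ a, r * (m.1 : Multiset (ZMod r)).count a = n := by
      intro m hm a
      have := Multiset.sum_count_eq_card (s := (Finset.univ : Finset (ZMod r)))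
        (m := (m.1 : Multiset (ZMod r))) fun x _ => Finset.mem_univ x
      rw [Finset.sum_congr rfl fun x _ => hconst m hm x a, Finset.sum_const, Finset.card_univ, ZMod.card,
        smul_eq_mul] at this
      rw [this]; exact m.1.2
    split_ifs with hd
    · obtain ⟨k, hk⟩ := hd
      have hk0 : k ≠ 0 := by rintro rfl; omega
      let M : Multiset (ZMod r) := k • Finset.univ.val
      have hcard : M.card = n := by simp [M, hk, mul_comm]
      have hcount : ∀ a, M.count a = k := fun a => by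
        simp [M, Multiset.count_eq_one_of_mem Finset.univ.nodup]
      let m : NC r n := ⟨⟨M, hcard⟩, fun a he => by
        obtain ⟨b, hb⟩ := exists_ne a
        have := congrArg (fun t : Sym (ZMod r) n => (t : Multiset (ZMod r)).count b) he
        simp [Sym.coe_replicate, Multiset.count_replicate, hb.symm, hcount] at this
        exact hk0 this⟩
      have hm : m ∈ AddAction.fixedBy (NC r n) s := by
        refine Subtype.ext (Subtype.ext (Multiset.ext.2 fun a => ?_))
        show (M.map (s + ·)).count a = M.count a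
        rw [show a = s + (-s + a) by simp, Multiset.count_map_eq_count' _ _ (add_right_injective s), hcount, hcount]
      refine Fintype.card_eq_one_iff.2 ⟨⟨m, hm⟩, fun x => Subtype.ext (Subtype.ext (Subtype.ext (Multiset.ext.2 fun a => ?_)))⟩
      show ((x.1 : NC r n).1 : Multiset (ZMod r)).count a = M.count a
      rw [hcount]
      exact Nat.eq_of_mul_eq_mul_left hr.pos ((hsum x.1 x.2 a).trans hk)
    · refine Fintype.card_eq_zero_iff.2 ⟨fun x => hd ⟨_, (hsum x.1 x.2 0).symm⟩⟩
  rw [h0, Finset.sum_congr rfl hs, Finset.sum_const, Finset.card_erase_of_mem (Finset.mem_univ _),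
    Finset.card_univ, ZMod.card, smul_eq_mul]

section Diag

variable {ζ : Fˣ}

set_option linter.unusedSectionVars false

/-- The character of `ZMod r` given by a primitive root. -/
def chi (ζ : Fˣ) (a : ZMod r) : Fˣ := ζ ^ a.val

lemma chi_add [NeZero r] (hζ : IsPrimitiveRoot ζ r) (a b : ZMod r) : chi ζ (a + b) = chi ζ a * chi ζ b := by
  rw [chi, chi, chi, ← pow_add, ZMod.val_add]
  exact (pow_eq_pow_mod _ hζ.pow_eq_one).symm

lemma chi_injective [NeZero r] (hζ : IsPrimitiveRoot ζ r) : Function.Injective (chi ζ : ZMod r → Fˣ) :=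
  fun a b h => ZMod.val_injective r (hζ.pow_inj (ZMod.val_lt a) (ZMod.val_lt b) h)

/-- The diagonal element with given exponents. -/
def diagElt (ζ : Fˣ) (v : Fin n → ZMod r) : Gn where
  val := Matrix.diagonal fun i => ((chi ζ (v i) : Fˣ) : F)
  inv := Matrix.diagonal fun i => (((chi ζ (v i))⁻¹ : Fˣ) : F)
  val_inv := by simp [Matrix.diagonal_mul_diagonal]
  inv_val := by simp [Matrix.diagonal_mul_diagonal]

lemma coe_diagElt (ζ : Fˣ) (v : Fin n → ZMod r) :
    (diagElt ζ v : Matrix (Fin n) (Fin n) F) = Matrix.diagonal fun i => ((chi ζ (v i) : Fˣ) : F) := rfl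

lemma charpoly_diagElt (ζ : Fˣ) (v : Fin n → ZMod r) :
    (diagElt ζ v : Matrix (Fin n) (Fin n) F).charpoly =
      (((Finset.univ.val.map v).map fun a => ((chi ζ a : Fˣ) : F)).map fun x => X - C x).prod := by
  rw [coe_diagElt, Matrix.charpoly_diagonal, Multiset.map_map, Multiset.map_map]
  rfl

lemma diagElt_pow [NeZero r] (hζ : IsPrimitiveRoot ζ r) (v : Fin n → ZMod r) : (diagElt ζ v : Gn) ^ r = 1 := by
  apply Units.ext
  rw [Units.val_pow_eq_pow_val, coe_diagElt, Matrix.diagonal_pow, Units.val_one, ← Matrix.diagonal_one]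
  congr 1
  funext i
  rw [Pi.pow_apply, ← Units.val_pow_eq_pow_val, chi, ← pow_mul, mul_comm, pow_mul, hζ.pow_eq_one, one_pow,
    Units.val_one]

lemma scal_mul_diagElt [NeZero r] (hζ : IsPrimitiveRoot ζ r) (s : ZMod r) (v : Fin n → ZMod r) :
    scal n (chi ζ s) * diagElt ζ v = diagElt ζ (fun i => s + v i) := by
  apply Units.ext
  rw [Units.val_mul, coe_scal, coe_diagElt, coe_diagElt, Matrix.smul_mul, Matrix.one_mul, ← Matrix.diagonal_smul]
  congr 1
  funext i
  simp [chi_add hζ]

end Diag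

/-- The number of classes of elements of order `r` in `PGLₙ`. -/
theorem card_classes (hn : 2 ≤ n) (hr : r.Prime) (hrq : r ∣ Fintype.card F - 1) :
    Nat.card {C : ConjClasses Qn // ∃ g : Qn, ConjClasses.mk g = C ∧ orderOf g = r} =
      Nat.card (Quotient (AddAction.orbitRel (ZMod r) (NC r n))) + (r - 1) * (if r ∣ n then 1 else 0) := by
  classical
  haveI : Fact r.Prime := ⟨hr⟩
  haveI : NeZero r := ⟨hr.ne_zero⟩
  obtain ⟨p, hchar⟩ := CharP.exists F
  haveI : Fact p.Prime := ⟨CharP.char_is_prime F p⟩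
  have hcop := r_ne_p (F := F) (p := p) hrq hr
  have hpq : p ∣ Fintype.card F := (CharP.cast_eq_zero_iff F p _).1 (Nat.cast_card_eq_zero F)
  obtain ⟨ζ, hζ⟩ : ∃ ζ : Fˣ, IsPrimitiveRoot ζ r := by
    obtain ⟨g, hg⟩ := IsCyclic.exists_generator (α := Fˣ)
    have ho := orderOf_eq_card_of_forall_mem_zpowers hg
    rw [Nat.card_units, Nat.card_eq_fintype_card] at ho
    obtain ⟨k, hk⟩ := hrq
    refine ⟨g ^ k, ?_⟩
    have := IsPrimitiveRoot.pow (show 0 < orderOf g from orderOf_pos g) (IsPrimitiveRoot.orderOf g)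
      (ho.trans (hk.trans (mul_comm r k)))
    exact this
  let R : Subgroup Fˣ := (powMonoidHom r : Fˣ →* Fˣ).range
  have hnoroot : ∀ c : Fˣ, (c : Fˣ ⧸ R) ≠ 1 → ∀ b : F, b ^ r ≠ (c : F) := by
    intro c hc b hb
    apply hc
    have hb0 : b ≠ 0 := by
      rintro rfl
      rw [zero_pow hr.ne_zero] at hb
      exact c.ne_zero hb.symm
    rw [QuotientGroup.eq_one_iff]
    exact ⟨Units.mk0 b hb0, Units.ext (by simpa using hb)⟩
  have horder : ∀ g : Gn, (∃ c, g ^ r = scal n c) → (¬ ∃ c, g = scal n c) → orderOf (g : Qn) = r := by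
    intro g hp' hns
    refine orderOf_eq_prime ?_ fun h => hns ((mk_eq_one_iff g).1 h)
    rw [← QuotientGroup.mk_pow, mk_eq_one_iff]
    exact hp'
  -- representatives
  let ex : NC r n → (Fin n → ZMod r) := fun m => (exists_enum m.1).choose
  have hex : ∀ m : NC r n, Finset.univ.val.map (ex m) = (m.1 : Multiset (ZMod r)) := fun m =>
    (exists_enum m.1).choose_spec
  have hDns : ∀ m : NC r n, ¬ ∃ c, (diagElt ζ (ex m) : Gn) = scal n c := by
    rintro m ⟨c, hc⟩
    have hcst : ∀ i, ((chi ζ (ex m i) : Fˣ) : F) = c := fun i => by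
      have := congrArg (fun g : Gn => (g : Matrix (Fin n) (Fin n) F) i i) hc
      simpa [coe_diagElt, coe_scal] using this
    let i₀ : Fin n := ⟨0, by omega⟩
    refine m.2 (ex m i₀) (Subtype.ext ?_)
    show (m.1 : Multiset (ZMod r)) = Multiset.replicate n (ex m i₀)
    rw [← hex m]
    refine Multiset.eq_replicate.2 ⟨by simp, fun a ha => ?_⟩
    obtain ⟨i, -, rfl⟩ := Multiset.mem_map.1 ha
    exact chi_injective hζ (Units.ext ((hcst i).trans (hcst i₀).symm))
  have hDconj : ∀ v w : Fin n → ZMod r,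
      (∃ e : Gn, e * diagElt ζ v * e⁻¹ = diagElt ζ w) ↔ Finset.univ.val.map v = Finset.univ.val.map w := by
    intro v w
    constructor
    · rintro ⟨e, he⟩
      have h1 : (diagElt ζ w : Matrix (Fin n) (Fin n) F).charpoly = (diagElt ζ v : Matrix (Fin n) (Fin n) F).charpoly := by
        rw [← he, Units.val_mul, Units.val_mul, Matrix.coe_units_inv, Matrix.charpoly_units_conj]
      rw [charpoly_diagElt, charpoly_diagElt] at h1
      have h2 := congrArg Polynomial.roots h1
      rw [roots_multiset_prod_X_sub_C, roots_multiset_prod_X_sub_C] at h2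
      exact (Multiset.map_injective (f := fun a => ((chi ζ a : Fˣ) : F))
        (Units.val_injective.comp (chi_injective hζ)) h2).symm
    · intro h
      refine CfsgLib.SemisimpleClasses.exists_conj_GL p _ _ (coprime_order (c := 1) hcop hpq ?_)
        (coprime_order (c := 1) hcop hpq ?_) (by rw [charpoly_diagElt, charpoly_diagElt, h]) <;>
        rw [diagElt_pow hζ, scal_one]
  have hB : ∀ κ : {κ : Fˣ ⧸ R // κ ≠ 1 ∧ r ∣ n}, ∃ g : Gn, g ^ r = scal n κ.1.out := fun κ =>
    exists_pow_eq_scal (p := p) hr κ.2.2 (hnoroot _ (by rw [QuotientGroup.out_eq']; exact κ.2.1))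
  choose gB hgB using hB
  have hBns : ∀ κ, ¬ ∃ c, gB κ = scal n c := by
    rintro κ ⟨c, hc⟩
    have := hgB κ
    rw [hc, ← scal_pow] at this
    have h1 := congrArg (fun g : Gn => (g : Matrix (Fin n) (Fin n) F) ⟨0, by omega⟩ ⟨0, by omega⟩) this
    simp [Matrix.diagonal_pow] at h1
    exact hnoroot κ.1.out (by rw [QuotientGroup.out_eq']; exact κ.2.1) _ h1
  let T := Quotient (AddAction.orbitRel (ZMod r) (NC r n)) ⊕ {κ : Fˣ ⧸ R // κ ≠ 1 ∧ r ∣ n}
  let rep : T → Gn := Sum.elim (fun o => diagElt ζ (ex o.out)) gB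
  have hrep : ∀ t, orderOf ((rep t : Gn) : Qn) = r := by
    rintro (o | κ)
    · exact horder _ ⟨1, by rw [scal_one]; exact diagElt_pow hζ _⟩ (hDns _)
    · exact horder _ ⟨_, hgB κ⟩ (hBns κ)
  let Θ : T → {C : ConjClasses Qn // ∃ g : Qn, ConjClasses.mk g = C ∧ orderOf g = r} :=
    fun t => ⟨ConjClasses.mk ((rep t : Gn) : Qn), _, rfl, hrep t⟩
  have hscal_inj : Function.Injective (scal n : Fˣ → Gn) := fun a b h => by
    have h1 := congrArg (fun g : Gn => (g : Matrix (Fin n) (Fin n) F) ⟨0, by omega⟩ ⟨0, by omega⟩) h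
    simp at h1
    exact Units.ext h1
  have hpowconj : ∀ (e g g' : Gn) (a c c' : Fˣ), g ^ r = scal n c → g' ^ r = scal n c' →
      e * g * e⁻¹ = scal n a * g' → c = a ^ r * c' := by
    intro e g g' a c c' hg hg' h
    apply hscal_inj
    have h1 := congrArg (· ^ r) h
    simp only [conj_pow, (commute_scal a g').mul_pow, hg, hg', ← scal_pow, ← scal_mul] at h1
    rwa [(commute_scal c e).symm.eq, mul_inv_cancel_right] at h1
  have hinj : Function.Injective Θ := by
    intro t t' h
    obtain ⟨e, a, he⟩ := (isConj_mk_iff _ _).1 (ConjClasses.mk_eq_mk_iff_isConj.1 (congrArg Subtype.val h))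
    rcases t with o | κ <;> rcases t' with o' | κ'
    · have ha := hpowconj e _ _ a 1 1 (by rw [scal_one]; exact diagElt_pow hζ (ex o.out))
        (by rw [scal_one]; exact diagElt_pow hζ (ex o'.out)) he
      rw [mul_one] at ha
      obtain ⟨i, hi, hai'⟩ := (hζ.map_of_injective (f := Units.coeHom F) Units.val_injective).eq_pow_of_pow_eq_one
        (show (a : F) ^ r = 1 by rw [← Units.val_pow_eq_pow_val, ← ha, Units.val_one])
      have hai : ζ ^ i = a := Units.ext (by rw [Units.val_pow_eq_pow_val]; exact hai')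
      have hchi : chi ζ (i : ZMod r) = a := by rw [chi, ZMod.val_natCast_of_lt hi, hai]
      simp only [rep, Sum.elim_inl] at he
      rw [← hchi, scal_mul_diagElt hζ] at he
      have hm := (hDconj _ _).1 ⟨e, he⟩
      rw [hex, ← Function.comp_def, ← Multiset.map_map, hex] at hm
      refine congrArg Sum.inl ?_
      rw [← Quotient.out_eq o, ← Quotient.out_eq o']
      exact Quotient.sound ⟨(i : ZMod r), Subtype.ext (Subtype.ext hm.symm)⟩
    · exfalso
      have ha := hpowconj e _ _ a 1 _ (by rw [scal_one]; exact diagElt_pow hζ (ex o.out)) (hgB κ') he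
      apply κ'.2.1
      rw [← QuotientGroup.out_eq' κ'.1, QuotientGroup.eq_one_iff]
      exact ⟨a⁻¹, by simp [eq_inv_of_mul_eq_one_right ha.symm]⟩
    · exfalso
      have ha := hpowconj e _ _ a _ 1 (hgB κ) (by rw [scal_one]; exact diagElt_pow hζ (ex o'.out)) he
      apply κ.2.1
      rw [← QuotientGroup.out_eq' κ.1, QuotientGroup.eq_one_iff]
      exact ⟨a, by rw [ha, mul_one]; rfl⟩
    · have ha := hpowconj e _ _ a _ _ (hgB κ) (hgB κ') he
      refine congrArg Sum.inr (Subtype.ext ?_)
      rw [← QuotientGroup.out_eq' κ.1, ← QuotientGroup.out_eq' κ'.1, ha, QuotientGroup.mk_mul,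
        (QuotientGroup.eq_one_iff _).2 (show a ^ r ∈ R from ⟨a, rfl⟩), one_mul]
  have hsurj : Function.Surjective Θ := by
    rintro ⟨C, x, rfl, hx⟩
    obtain ⟨g, rfl⟩ := QuotientGroup.mk_surjective x
    have hns : ¬ ∃ c, g = scal n c := fun h => by
      rw [(mk_eq_one_iff g).2 h, orderOf_one] at hx
      exact hr.ne_one hx.symm
    obtain ⟨c, hc⟩ : ∃ c, g ^ r = scal n c := (mk_eq_one_iff _).1 (by
      rw [QuotientGroup.mk_pow, ← hx, pow_orderOf_eq_one])
    suffices hs : ∃ t e a, e * (rep t) * e⁻¹ = scal n a * g by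
      obtain ⟨t, e, a, h⟩ := hs
      exact ⟨t, Subtype.ext (ConjClasses.mk_eq_mk_iff_isConj.2 ((isConj_mk_iff _ _).2 ⟨e, a, h⟩))⟩
    by_cases hcR : (c : Fˣ ⧸ R) = 1
    · obtain ⟨a, ha⟩ := (QuotientGroup.eq_one_iff c).1 hcR
      rw [powMonoidHom_apply] at ha
      set g₁ := scal n a⁻¹ * g
      have hg1 : g₁ ^ r = 1 := by
        rw [(commute_scal _ g).mul_pow, hc, ← scal_pow, ← scal_mul, inv_pow, ha, inv_mul_cancel, scal_one]
      -- eigenbasis
      have hann : aeval (g₁ : Matrix (Fin n) (Fin n) F) (∏ s ∈ nthRootsFinset r (1 : F), (X - C s)) = 0 := by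
        rw [← X_pow_sub_one_eq_prod hr.pos (hζ.map_of_injective (f := Units.coeHom F) Units.val_injective),
          map_sub, map_pow, aeval_X, map_one, ← Units.val_pow_eq_pow_val, hg1, Units.val_one, sub_self]
      obtain ⟨b, d, hd, hb⟩ := CfsgLib.Omega.exists_eigenbasis _ _ hann
      have hdv : ∀ i, ∃ s : ZMod r, ((chi ζ s : Fˣ) : F) = d i := fun i => by
        have hdi : d i ^ r = 1 := (mem_nthRootsFinset hr.pos _).1 (hd i)
        obtain ⟨k, hk, hki⟩ := (hζ.map_of_injective (f := Units.coeHom F) Units.val_injective).eq_pow_of_pow_eq_one hdi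
        refine ⟨k, ?_⟩
        rw [chi, ZMod.val_natCast_of_lt hk, Units.val_pow_eq_pow_val]
        exact hki
      choose v hv using hdv
      have hchar : (g₁ : Matrix (Fin n) (Fin n) F).charpoly = (diagElt ζ v : Matrix (Fin n) (Fin n) F).charpoly := by
        rw [← Matrix.charpoly_toLin', ← LinearMap.charpoly_toMatrix _ b, coe_diagElt]
        congr 1
        ext i j
        rw [LinearMap.toMatrix_apply, Matrix.toLin'_apply, hb, map_smul, Finsupp.smul_apply,
          Module.Basis.repr_self, Finsupp.single_apply, Matrix.diagonal_apply]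
        by_cases hij : i = j
        · subst hij; simp [hv]
        · simp [hij, Ne.symm hij]
      obtain ⟨e₁, he₁⟩ := CfsgLib.SemisimpleClasses.exists_conj_GL p _ g₁
        (coprime_order (c := 1) hcop hpq (by rw [diagElt_pow hζ, scal_one]))
        (coprime_order (c := 1) hcop hpq (by rw [hg1, scal_one])) hchar.symm
      let m : Sym (ZMod r) n := ⟨Finset.univ.val.map v, by simp⟩
      have hm : ∀ s, m ≠ Sym.replicate n s := by
        intro s hs
        apply hns
        refine ⟨a * chi ζ s, ?_⟩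
        have hall : ∀ i, v i = s := fun i => by
          have h1 : v i ∈ (m : Multiset (ZMod r)) :=
            show v i ∈ Finset.univ.val.map v from Multiset.mem_map_of_mem v (Finset.mem_univ i)
          rw [hs, Sym.coe_replicate] at h1
          exact Multiset.eq_of_mem_replicate h1
        have hD : (diagElt ζ v : Gn) = scal n (chi ζ s) := by
          apply Units.ext
          rw [coe_diagElt, coe_scal, Matrix.smul_one_eq_diagonal]
          simp [hall]
        rw [hD, (commute_scal _ e₁).symm.eq, mul_inv_cancel_right] at he₁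
        rw [scal_mul, he₁, ← mul_assoc, ← scal_mul, mul_inv_cancel, scal_one, one_mul]
      let mc : NC r n := ⟨m, hm⟩
      let o : Quotient (AddAction.orbitRel (ZMod r) (NC r n)) := Quotient.mk _ mc
      obtain ⟨s, hs⟩ : ∃ s : ZMod r, s +ᵥ mc = o.out :=
        Quotient.exact (Quotient.out_eq o)
      obtain ⟨e₂, he₂⟩ := (hDconj (ex o.out) (fun i => s + v i)).2 (by
        rw [hex, ← hs, vadd_val, Sym.coe_map]
        exact Multiset.map_map (fun x => s + x) v Finset.univ.val)
      refine ⟨Sum.inl o, e₁ * e₂, chi ζ s * a⁻¹, ?_⟩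
      simp only [rep, Sum.elim_inl]
      rw [show e₁ * e₂ * diagElt ζ (ex o.out) * (e₁ * e₂)⁻¹ = e₁ * (e₂ * diagElt ζ (ex o.out) * e₂⁻¹) * e₁⁻¹ by
        group, he₂, ← scal_mul_diagElt hζ, ← mul_assoc e₁, (commute_scal _ e₁).symm.eq, mul_assoc, mul_assoc,
        ← mul_assoc e₁, he₁, scal_mul, mul_assoc]
    · have hrn : r ∣ n := by
        have hπ := X_pow_sub_C_irreducible_of_prime hr (hnoroot c hcR)
        obtain ⟨k, -, hk⟩ := charpoly_eq_pow (g : Matrix (Fin n) (Fin n) F) (monic_X_pow_sub_C (c : F) hr.ne_zero) hπ (by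
          rw [map_sub, map_pow, aeval_X, aeval_C, ← map_pow, ← Units.val_pow_eq_pow_val, hc, coe_scal, map_smul,
            map_one, Algebra.algebraMap_eq_smul_one, sub_self])
        exact ⟨k, by rw [hk, natDegree_X_pow_sub_C, mul_comm]⟩
      let κ : {κ : Fˣ ⧸ R // κ ≠ 1 ∧ r ∣ n} := ⟨c, hcR, hrn⟩
      obtain ⟨a, ha⟩ : ∃ a : Fˣ, κ.1.out = a ^ r * c := by
        have h1 : ((κ.1.out * c⁻¹ : Fˣ) : Fˣ ⧸ R) = 1 := by
          rw [QuotientGroup.mk_mul, QuotientGroup.out_eq', QuotientGroup.mk_inv, mul_inv_cancel]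
        obtain ⟨a, ha⟩ := (QuotientGroup.eq_one_iff _).1 h1
        rw [powMonoidHom_apply] at ha
        exact ⟨a, by rw [ha, inv_mul_cancel_right]⟩
      obtain ⟨e, he⟩ := conj_of_pow_eq_scal (p := p) hr hcop hpq
        (hnoroot κ.1.out (by rw [QuotientGroup.out_eq']; exact hcR)) (hgB κ)
        (show (scal n a * g) ^ r = scal n κ.1.out by
          rw [(commute_scal _ g).mul_pow, hc, ← scal_pow, ← scal_mul, ha])
      exact ⟨Sum.inr κ, e, a, he⟩
  rw [← Nat.card_congr (Equiv.ofBijective Θ ⟨hinj, hsurj⟩), Nat.card_sum]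
  congr 1
  by_cases hd : r ∣ n
  · rw [if_pos hd, mul_one]
    have hidx : Nat.card (Fˣ ⧸ R) = r := by
      show R.index = r
      rw [IsCyclic.index_powMonoidHom_range, Nat.card_units, Nat.card_eq_fintype_card]
      exact Nat.gcd_eq_right hrq
    haveI : Fintype (Fˣ ⧸ R) := Fintype.ofFinite _
    rw [Nat.card_eq_fintype_card] at hidx
    rw [Nat.card_congr (Equiv.subtypeEquivRight (q := fun κ : Fˣ ⧸ R => κ ≠ 1) fun κ => and_iff_left hd),
      Nat.card_eq_fintype_card, Fintype.card_subtype_compl, Fintype.card_subtype_eq, hidx]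
  · rw [if_neg hd, mul_zero, Nat.card_eq_zero]
    exact Or.inl ⟨fun κ => hd κ.2.2⟩

end CfsgLib.Classes.PGLPrime
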