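import Cfsg.Agent.Lib.Classes.POmegaOutFrob

/-!
An even power of a twisted Frobenius with nonsquare discriminant is outer.
-/

set_option autoImplicit false
set_option linter.unusedSectionVars false

open Matrix
open CfsgLib.ClassicalForms CfsgLib.Parabolic.POmegaAut CfsgLib.Classes.POmegaOut

namespace CfsgLib.Classes.POmegaOutEven

universe u

variable {F : Type u} [Field F] [Fintype F] {ι : Type} [Fintype ι] [DecidableEq ι] {f : (ι → F) → F}

set_option maxHeartbeats 1000000 in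
theorem mk_pow_ne_one (Q : QuadraticForm F (ι → F)) (p N : ℕ) [Fact p.Prime] [CharP F p] {m : ℕ}
    (hQf : ∀ v, Q v = f v) (hQ : Nondeg Q) (hn : 7 ≤ Fintype.card ι) (hgen : IsGen Q)
    (hm : Fintype.card ι = 2 * m) (h2 : (2 : F) ≠ 0)
    (hall : ∀ c : Fˣ, ∃ g : GL ι F, ∀ v, f ((Units.val g : Matrix ι ι F) *ᵥ v) = (c : F) * f v)
    (hcard : Nat.card (simOut (f := f)).range = 4) (hF : Fintype.card F = p ^ N) (hp : p ≠ 2) (hN : Even N)
    {A : Matrix ι ι F} (hA : ∀ u v, QuadraticMap.polar f u v = u ⬝ᵥ A *ᵥ v) (hAd : A.det ≠ 0) (hns : ¬ IsSquare A.det)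
    (P : Pairs f) (hσ : P.1.2 = frobeniusEquiv F p)
    (hP : ∀ v, f ((Units.val P.1.1 : Matrix ι ι F) *ᵥ (fun i => P.1.2 (v i))) = P.1.2 (f v)) :
    (QuotientGroup.mk (semiAut P) : Cfsg.Out (Cfsg.POmega F f)) ^ N ≠ 1 := by
  intro h
  have hodd : Odd p := (Fact.out : p.Prime).odd_of_ne_two hp
  have hN1 : 1 ≤ N := by
    rcases Nat.eq_zero_or_pos N with h0 | h0
    · subst h0
      rw [pow_zero] at hF
      exact absurd hF Fintype.one_lt_card.ne'
    · exact h0
  obtain ⟨R, hR, hRσ, hRf, e, he2, he, hdet⟩ := exists_pow_pair Q p hQf hQ hn hgen P hσ hP N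
  rw [← QuotientGroup.mk_pow, hR] at h
  have hone : frobeniusEquiv F p ^ N = 1 := by
    conv_lhs => rw [← orderOf_frobenius p N hN1 hF]
    exact pow_orderOf_eq_one _
  rw [hone] at hRσ
  haveI : Nonempty ι := Fintype.card_pos_iff.1 (by omega)
  have hRS : ∀ v, f ((Units.val R.1.1 : Matrix ι ι F) *ᵥ v) = ((1 : Fˣ) : F) * f v := fun v => by
    rw [Units.val_one, one_mul]
    have := hRf v
    rw [hRσ] at this
    exact this
  let S : Cfsg.Geo.quadSimilarityGroup (F := F) f := ⟨R.1.1, 1, hRS⟩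
  have hS1 : simOut S = 1 := by
    rw [simOut_apply, show simPair S = R from Subtype.ext (Prod.ext rfl hRσ.symm)]
    exact h
  obtain ⟨μ, hμ⟩ := exists_mult_hom Q hQf hQ
  obtain ⟨-, hd⟩ := (simOut_eq_one_iff_of_card_four Q hQf hQ hn hgen hm h2 hall hcard μ hμ S).1 hS1
  rw [mult_unique Q hQf hQ (hμ S) hRS, Units.val_one, one_pow] at hd
  set D := A.det with hD
  set d := (Units.val P.1.1 : Matrix ι ι F).det with hddef
  have hd2 : d ^ 2 * D = D ^ p := by
    have h1 := det_pair Q hQf hA P.1.1 P.1.2 1 fun v => by rw [one_mul]; exact hP v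
    rwa [one_pow, one_mul, hσ, frobeniusEquiv_apply, frobenius_def] at h1
  have hd2' : d ^ 2 = D ^ (p - 1) := mul_right_cancel₀ hAd (by
    rw [hd2, ← pow_succ, Nat.sub_add_cancel (Fact.out : p.Prime).pos])
  rw [if_pos hodd, Nat.even_iff.1 hN] at he2
  have hdd : d ^ e = 1 := hdet.symm.trans hd
  obtain ⟨w, hw⟩ : 2 ∣ e := Nat.dvd_of_mod_eq_zero he2
  rw [hw, pow_mul, hd2', ← pow_mul] at hdd
  have hne : (p - 1) * w = Fintype.card F / 2 := by
    have hmul : (p - 1) * e = 2 * ((p - 1) * w) := by rw [hw]; ring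
    rw [hF]
    omega
  rw [hne] at hdd
  exact hns ((FiniteField.isSquare_iff (by rw [ringChar.eq F p]; exact hp) hAd).2 hdd)

end CfsgLib.Classes.POmegaOutEven
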