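import Cfsg.Agent.Lib.Parabolic.PSUAutCount
import Cfsg.Agent.Lib.ClassicalAut.UnitaryGamma
import Cfsg.Prelude.Def_KGroupFacts

/-!
The outer automorphism group of `PSU_n`: diagonal part and field part.
-/

set_option autoImplicit false

open Matrix
open CfsgLib.ClassicalForms CfsgLib.ReflectionsSpinor.PSUAut CfsgLib.Parabolic.PSUAutCount

namespace CfsgLib.Classes.PSUOut

variable {n q : ℕ} {F : Type*} [Field F] [Fintype F]

theorem scalar_central {g : GL (Fin n) F} (hg : g ∈ Cfsg.Geo.scalars (Fin n) F) (x : GL (Fin n) F) :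
    x * g = g * x := by
  obtain ⟨c, hc⟩ := (Cfsg.Geo.mem_scalars_iff _).1 hg
  refine Units.ext ?_
  rw [Units.val_mul, Units.val_mul, hc, Matrix.smul_mul, Matrix.one_mul, Matrix.mul_smul, Matrix.mul_one]

/-- `PSU_n` embeds into its automorphism group. -/
theorem card_inn (hF : Fintype.card F = q ^ 2) (hn : 3 ≤ n) (hs : ¬ (n = 3 ∧ q = 2)) :
    Nat.card (Cfsg.Inn (Cfsg.PSU n F q)) = Nat.card (Cfsg.PSU n F q) := by
  have hinj : Function.Injective (MulAut.conj : Cfsg.PSU n F q →* MulAut (Cfsg.PSU n F q)) := by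
    refine (injective_iff_map_eq_one _).2 fun x hx => ?_
    obtain ⟨s, rfl⟩ := cl_surjective x
    rw [inner_eq_semiAut, semiAut_one_right_eq_one_iff hF hn hs] at hx
    refine (QuotientGroup.eq_one_iff s).2 (Subgroup.mem_center_iff.2 fun t => suToGU_injective ?_)
    rw [map_mul, map_mul]
    exact Subtype.ext (scalar_central hx _)
  exact (Nat.card_congr (MonoidHom.ofInjective hinj).toEquiv).symm

/-- The outer classes of the inner-diagonal automorphisms. -/
noncomputable def toOutHom : Cfsg.GU n F q →* Cfsg.Out (Cfsg.PSU n F q) :=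
  (QuotientGroup.mk' (Cfsg.Inn (Cfsg.PSU n F q))).comp toAutHom

theorem isCyclic_range_toOutHom : IsCyclic (toOutHom (n := n) (F := F) (q := q)).range := by
  classical
  have : IsCyclic (guDet n F q).range := inferInstance
  obtain ⟨⟨d, g₀, hg₀⟩, hd⟩ := IsCyclic.exists_generator (α := (guDet n F q).range)
  refine isCyclic_iff_exists_zpowers_eq_top.2 ⟨⟨toOutHom g₀, g₀, rfl⟩, (Subgroup.eq_top_iff' _).2 ?_⟩
  rintro ⟨_, g, rfl⟩
  obtain ⟨k, hk⟩ := Subgroup.mem_zpowers_iff.1 (hd ⟨guDet n F q g, g, rfl⟩)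
  refine Subgroup.mem_zpowers_iff.2 ⟨k, Subtype.ext ?_⟩
  rw [Subgroup.coe_zpow]
  show toOutHom g₀ ^ k = toOutHom g
  have hs : guDet n F q (g₀ ^ (-k) * g) = 1 := by
    have hk' : d ^ k = guDet n F q g := congrArg Subtype.val hk
    rw [map_mul, map_zpow, hg₀, ← hk', _root_.zpow_neg, inv_mul_cancel]
  have h1 : toOutHom (g₀ ^ (-k) * g) = 1 := by
    show QuotientGroup.mk' _ (semiAut (g₀ ^ (-k) * g) 1) = 1
    rw [QuotientGroup.mk'_apply, QuotientGroup.eq_one_iff, ← suToGU_suOfGU _ hs, ← inner_eq_semiAut]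
    exact ⟨_, rfl⟩
  rw [map_mul, map_zpow, _root_.zpow_neg] at h1
  exact inv_mul_eq_one.1 h1

theorem card_range_toOutHom (hF : Fintype.card F = q ^ 2) (hn : 3 ≤ n) (hs : ¬ (n = 3 ∧ q = 2)) :
    Nat.card (toOutHom (n := n) (F := F) (q := q)).range = Nat.gcd n (q + 1) := by
  set A := (toAutHom (n := n) (F := F) (q := q)).range with hA
  have hIA : Cfsg.Inn (Cfsg.PSU n F q) ≤ A := hA ▸ inndiag_eq_range (n := n) (F := F) (q := q) ▸ inn_le_inndiag
  have hr : (toOutHom (n := n) (F := F) (q := q)).range = A.map (QuotientGroup.mk' (Cfsg.Inn (Cfsg.PSU n F q))) := by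
    rw [toOutHom, MonoidHom.range_comp]
  have h := Subgroup.index_mul_card ((QuotientGroup.mk' (Cfsg.Inn (Cfsg.PSU n F q))).domRestrict A).ker
  rw [Subgroup.index_ker, MonoidHom.domRestrict_range, MonoidHom.ker_domRestrict, QuotientGroup.ker_mk',
    Nat.card_congr (Subgroup.subgroupOfEquivOfLe hIA).toEquiv, card_inn hF hn hs, ← hr, hA, card_inndiag hF hn hs] at h
  haveI : Finite (Cfsg.PSU n F q) := inferInstance
  exact Nat.eq_of_mul_eq_mul_right Nat.card_pos h

open scoped Classical in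
/-- The field part of an automorphism of `PSU_n`. -/
theorem exists_field_hom (hF : Fintype.card F = q ^ 2) (hn : 3 ≤ n) (hs : ¬ (n = 3 ∧ q = 2)) :
    ∃ φ : Cfsg.Out (Cfsg.PSU n F q) →* (F ≃+* F), Function.Surjective φ ∧
      φ.ker = (toOutHom (n := n) (F := F) (q := q)).range := by
  have hex : ∀ φ : MulAut (Cfsg.PSU n F q), ∃ σ : F ≃+* F, ∃ g : Cfsg.GU n F q, φ = semiAut g σ := fun φ => by
    obtain ⟨g, σ, h⟩ := CfsgLib.ClassicalAut.Unitary.exists_semiAut_psu hF hn hs φ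
    exact ⟨σ, g, h⟩
  choose s g hs' using hex
  have huniq : ∀ (h : Cfsg.GU n F q) (τ : F ≃+* F), s (semiAut h τ) = τ := fun h τ => by
    have e := hs' (semiAut h τ)
    generalize s (semiAut h τ) = σ at e ⊢
    generalize g (semiAut h τ) = k at e
    have e1 : (semiAut k σ)⁻¹ * semiAut h τ = 1 := inv_mul_eq_one.2 e.symm
    rw [semiAut_inv, semiAut_mul] at e1
    exact inv_mul_eq_one.1 (sigma_eq_one hF hn hs e1)
  let ψ : MulAut (Cfsg.PSU n F q) →* (F ≃+* F) := MonoidHom.mk' s fun a b => by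
    conv_lhs => rw [hs' a, hs' b, semiAut_mul]
    rw [huniq]
  have hker : ψ.ker = (toAutHom (n := n) (F := F) (q := q)).range := by
    ext φ
    refine ⟨fun h => ⟨g φ, ?_⟩, ?_⟩
    · conv_rhs => rw [hs' φ, show s φ = 1 from h]
      rfl
    · rintro ⟨k, rfl⟩
      exact huniq k 1
  have hle : Cfsg.Inn (Cfsg.PSU n F q) ≤ ψ.ker := by
    rw [hker, ← inndiag_eq_range]; exact inn_le_inndiag
  refine ⟨QuotientGroup.lift _ ψ hle, fun σ => ⟨QuotientGroup.mk (semiAut 1 σ), huniq 1 σ⟩, ?_⟩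
  rw [QuotientGroup.ker_lift, hker, toOutHom, MonoidHom.range_comp]

end CfsgLib.Classes.PSUOut
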