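import Cfsg.Agent.Lib.Classes.OmegaPairs

/-!
Diagonal sign changes on a family of hyperbolic coordinate pairs, and when they lie in `Ω`.
-/

set_option autoImplicit false

namespace CfsgLib.Classes

open Matrix QuadraticMap CfsgLib.OrthGen

variable {F : Type*} [Field F] {ι : Type} [Fintype ι] [DecidableEq ι]

/-- Negating the first `i` of a family of hyperbolic coordinate pairs `(x j, y j)`. -/
theorem diag_pairs_mem_omega_iff [Finite F] (h2 : (2 : F) ≠ 0) {f : (ι → F) → F}
    (Q : QuadraticForm F (ι → F)) (hf : ∀ v, Q v = f v) (hQ : (QuadraticMap.polarBilin Q).Nondegenerate)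
    (hn : 2 ≤ Fintype.card ι) {i : ℕ} (x y : Fin i → ι) (L : ι → ℕ)
    (hx : ∀ j, L (x j) = j) (hy : ∀ j, L (y j) = j) (hxy : ∀ j, x j ≠ y j)
    (hcover : ∀ k, L k < i → ∃ j, k = x j ∨ k = y j)
    (hQx : ∀ j, Q (Pi.single (x j) 1) = 0) (hQy : ∀ j, Q (Pi.single (y j) 1) = 0)
    (hpx : ∀ j v, pf Q (Pi.single (x j) 1) v = v (y j))
    (hpy : ∀ j v, pf Q (Pi.single (y j) 1) v = v (x j))
    (hiso : ∀ v, f (fun k => (if L k < i then (-1 : F) else 1) * v k) = f v) :
    (∃ g : Cfsg.isometryGroup F f, g ∈ Cfsg.Omega F f ∧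
      ((g : Matrix.GeneralLinearGroup ι F) : Matrix ι ι F) =
        Matrix.diagonal (fun k => if L k < i then (-1 : F) else 1)) ↔ IsSquare ((-1 : F) ^ i) := by
  classical
  obtain rfl : f = ⇑Q := funext fun v => (hf v).symm
  set d : ι → F := fun k => if L k < i then (-1 : F) else 1 with hd
  have hdd : Matrix.diagonal d * Matrix.diagonal d = 1 := by
    rw [Matrix.diagonal_mul_diagonal, ← Matrix.diagonal_one]
    exact congrArg _ (funext fun k => by simp only [hd]; split_ifs <;> simp)
  let g : Cfsg.isometryGroup F (⇑Q) := mkIso Q (Matrix.diagonal d) (Matrix.diagonal d) hdd hdd fun v => by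
    rw [show Matrix.diagonal d *ᵥ v = fun k => d k * v k from funext fun k => Matrix.mulVec_diagonal d v k]
    exact hiso v
  rw [exists_mem_omega_iff g (Matrix.diagonal d) rfl]
  have hinjx : Function.Injective x := fun a b h => Fin.ext (by rw [← hx a, ← hx b, h])
  have hinjy : Function.Injective y := fun a b h => Fin.ext (by rw [← hy a, ← hy b, h])
  have hxy' : ∀ a b, x a ≠ y b := fun a b h => hxy a (by
    have hab : a = b := Fin.ext (by rw [← hx a, ← hy b, h])
    rw [h, hab])
  refine pairs_neg_mem_omega_iff h2 hQ hn (fun j => Pi.single (x j) 1) (fun j => Pi.single (y j) 1) hQx hQy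
    (fun j k => ?_) (fun j k => ?_) (fun j k => ?_) g fun v => funext fun k => ?_
  · rw [hpx, Pi.single_apply]
    exact if_congr hinjy.eq_iff rfl rfl
  · rw [hpx, Pi.single_apply, if_neg (hxy' k j).symm]
  · rw [hpy, Pi.single_apply, if_neg (hxy' j k)]
  show (Matrix.diagonal d *ᵥ v) k = _
  rw [Matrix.mulVec_diagonal]
  simp only [hpx, hpy, Pi.sub_apply, Finset.sum_apply, Pi.add_apply, Pi.smul_apply, Pi.single_apply, smul_eq_mul,
    mul_ite, mul_one, mul_zero, Finset.sum_add_distrib, hd]
  by_cases hk : L k < i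
  · rw [if_pos hk]
    obtain ⟨j, rfl | rfl⟩ := hcover k hk
    · rw [Finset.sum_eq_single j (fun b _ hb => if_neg fun e => hb (hinjx e).symm) (by simp), if_pos rfl,
        Finset.sum_eq_zero fun b _ => if_neg (hxy' j b)]
      ring
    · rw [Finset.sum_eq_zero fun b _ => if_neg (hxy' b j).symm,
        Finset.sum_eq_single j (fun b _ hb => if_neg fun e => hb (hinjy e).symm) (by simp), if_pos rfl]
      ring
  · rw [if_neg hk, Finset.sum_eq_zero fun b _ => if_neg fun e => hk (by rw [e, hx]; exact b.2),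
      Finset.sum_eq_zero fun b _ => if_neg fun e => hk (by rw [e, hy]; exact b.2)]
    ring

end CfsgLib.Classes
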