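import Cfsg.Prelude.Def_Classical
import Cfsg.Prelude.Def_LieClassical
import Cfsg.Agent.Lib.Classes.QuadExt

/-!
Restriction of scalars: the unitary group `GU_m(q)` acting on `F^(2m)`.
-/

set_option autoImplicit false

namespace CfsgLib.Classes

open scoped Matrix

variable {K F : Type*} [Field K] [Fintype K] [Field F] [Fintype F] [Algebra F K] {q m : ℕ}
  {ι : Type} [Fintype ι] [DecidableEq ι]

/-- The `F`-linear map on `F^ι` corresponding to a matrix over `K` through `E`. -/
noncomputable def realLin (E : (ι → F) ≃ₗ[F] (Fin m → K)) (g : GL (Fin m) K) : (ι → F) →ₗ[F] (ι → F) :=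
  E.symm.toLinearMap ∘ₗ ((g : Matrix (Fin m) (Fin m) K).mulVecLin.restrictScalars F) ∘ₗ E.toLinearMap

omit [Fintype K] [Fintype F] [Fintype ι] [DecidableEq ι] in
theorem realLin_apply (E : (ι → F) ≃ₗ[F] (Fin m → K)) (g : GL (Fin m) K) (v : ι → F) :
    realLin E g v = E.symm ((g : Matrix (Fin m) (Fin m) K) *ᵥ E v) := rfl

/-- Restriction of scalars `GL_m(K) → GL(ι, F)` through `E`. -/
noncomputable def realify (E : (ι → F) ≃ₗ[F] (Fin m → K)) : GL (Fin m) K →* GL ι F :=
  MonoidHom.toHomUnits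
    { toFun := fun g => LinearMap.toMatrix' (realLin E g)
      map_one' := by
        rw [← LinearMap.toMatrix'_id]
        congr 1
        refine LinearMap.ext fun v => ?_
        rw [realLin_apply]
        simp
      map_mul' := fun g h => by
        rw [← LinearMap.toMatrix'_comp]
        congr 1
        refine LinearMap.ext fun v => ?_
        rw [LinearMap.comp_apply, realLin_apply, realLin_apply, realLin_apply, LinearEquiv.apply_symm_apply,
          Matrix.mulVec_mulVec, Units.val_mul] }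

omit [Fintype K] [Fintype F] in
theorem realify_mulVec (E : (ι → F) ≃ₗ[F] (Fin m → K)) (g : GL (Fin m) K) (v : ι → F) :
    E ((realify E g : Matrix ι ι F) *ᵥ v) = (g : Matrix (Fin m) (Fin m) K) *ᵥ E v := by
  show E (LinearMap.toMatrix' (realLin E g) *ᵥ v) = _
  rw [LinearMap.toMatrix'_mulVec, realLin_apply, LinearEquiv.apply_symm_apply]

omit [Fintype K] [Fintype F] in
theorem realify_injective (E : (ι → F) ≃ₗ[F] (Fin m → K)) : Function.Injective (realify E) := by
  intro g h hgh
  refine Units.ext (Matrix.ext_of_mulVec_single fun i => ?_)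
  obtain ⟨v, hv⟩ := E.surjective (Pi.single i 1)
  rw [← hv, ← realify_mulVec, ← realify_mulVec, hgh]

omit [Fintype K] [Fintype F] in
theorem hermForm_mulVec (g : ↥(Cfsg.GU m K q)) (u v : Fin m → K) :
    Cfsg.hermForm m K q (((g : GL (Fin m) K) : Matrix (Fin m) (Fin m) K) *ᵥ u)
      (((g : GL (Fin m) K) : Matrix (Fin m) (Fin m) K) *ᵥ v) = Cfsg.hermForm m K q u v :=
  g.2 u v

omit [Fintype K] [Fintype F] in
/-- If `E` carries `Q` to `v ↦ h(v, v)` then `GU_m(q)` embeds in the isometry group of `Q`. -/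
theorem exists_GU_hom_isometryGroup (E : (ι → F) ≃ₗ[F] (Fin m → K)) (Q : (ι → F) → F)
    (hQ : ∀ v, algebraMap F K (Q v) = Cfsg.hermForm m K q (E v) (E v)) :
    ∃ φ : ↥(Cfsg.GU m K q) →* ↥(Cfsg.isometryGroup F Q), Function.Injective φ := by
  refine ⟨((realify E).comp (Cfsg.GU m K q).subtype).codRestrict _ fun g => fun u v => ?_, ?_⟩
  · show Q ((realify E g.1 : Matrix ι ι F) *ᵥ u) = Q u
    apply (algebraMap F K).injective
    rw [hQ, hQ, realify_mulVec, hermForm_mulVec]
  · intro g h hgh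
    exact Subtype.ext (realify_injective E (congrArg Subtype.val hgh))

/-- The parametrisation of a hyperbolic pair of coordinates inside `K^2`. -/
noncomputable def pairFun (θ c c' : K) (q : ℕ) (x y : Fin 2 → F) : Fin 2 → K :=
  let a := algebraMap F K (x 0) + θ * algebraMap F K (x 1)
  let b := ((algebraMap F K (y 0) * θ ^ q - algebraMap F K (y 1)) / ((θ ^ q - θ) * (1 + c * c' ^ q))) ^ q
  ![a + b, c * a + c' * b]

/-- Parameters for `pairFun`. -/
structure PairParam (F K : Type*) [Field K] [Field F] [Algebra F K] (q : ℕ) where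
  θ : K
  c : K
  c' : K
  notMem : θ ∉ Set.range (algebraMap F K)
  ne : c ≠ c'
  hc : c * c ^ q = -1
  hc' : c' * c' ^ q = -1

theorem exists_pairParam (hK : Fintype.card K = q ^ 2) (hF : Fintype.card F = q) :
    Nonempty (PairParam F K q) := by
  obtain ⟨c, c', h1, h2, h3⟩ := exists_norm_eq_neg_one hK hF
  obtain ⟨θ, hθ⟩ := exists_not_mem_range hK hF
  exact ⟨⟨θ, c, c', hθ, h1, h2, h3⟩⟩

theorem pairFun_norm (hK : Fintype.card K = q ^ 2) (hF : Fintype.card F = q) (P : PairParam F K q)
    (x y : Fin 2 → F) :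
    ∑ s : Fin 2, pairFun P.θ P.c P.c' q x y s * pairFun P.θ P.c P.c' q x y s ^ q =
      algebraMap F K (∑ s : Fin 2, x s * y s) := by
  obtain ⟨θ, c, c', hθ, hne, hc, hc'⟩ := P
  have hd : θ ^ q - θ ≠ 0 := sub_ne_zero.mpr (pow_card_ne hK hF hθ)
  have hd' : θ - θ ^ q ≠ 0 := fun h => hd (by linear_combination -h)
  have hk : 1 + c * c' ^ q ≠ 0 := by
    intro h
    have hc0 : c' ≠ 0 := fun h0 => by simp [h0] at hc'
    have h2 : c' ^ q ≠ 0 := pow_ne_zero _ hc0
    exact hne (mul_right_cancel₀ h2 (by linear_combination h - hc'))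
  have hk' : 1 + c ^ q * c' ≠ 0 := by
    intro h
    apply hk
    have h2 := congrArg (· ^ q) h
    simp only [add_pow_card hF, one_pow, mul_pow, pow_card_pow_card hK,
      zero_pow (show q ≠ 0 by have : 1 < q := hF ▸ Fintype.one_lt_card; omega)] at h2
    exact h2
  simp only [Fin.sum_univ_two, pairFun, Matrix.cons_val_zero, Matrix.cons_val_one, map_add, map_mul]
  set x0 := algebraMap F K (x 0) with hx0
  set x1 := algebraMap F K (x 1) with hx1
  set y0 := algebraMap F K (y 0) with hy0
  set y1 := algebraMap F K (y 1) with hy1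
  set w := (y0 * θ ^ q - y1) / ((θ ^ q - θ) * (1 + c * c' ^ q)) with hw
  have hwq : w ^ q = (y0 * θ - y1) / ((θ - θ ^ q) * (1 + c ^ q * c')) := by
    rw [hw, div_pow, sub_pow_card hF, mul_pow, mul_pow, sub_pow_card hF, pow_card_pow_card hK,
      hy0, hy1, algebraMap_pow_card hF, algebraMap_pow_card hF, add_pow_card hF, one_pow, mul_pow,
      pow_card_pow_card hK]
  have e1 : (x0 + θ * x1) ^ q = x0 + θ ^ q * x1 := by
    rw [add_pow_card hF, mul_pow, hx0, hx1, algebraMap_pow_card hF, algebraMap_pow_card hF]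
  have hww : w * ((θ ^ q - θ) * (1 + c * c' ^ q)) = y0 * θ ^ q - y1 := by
    rw [hw, div_mul_cancel₀ _ (mul_ne_zero hd hk)]
  have hwwq : w ^ q * ((θ - θ ^ q) * (1 + c ^ q * c')) = y0 * θ - y1 := by
    rw [hwq, div_mul_cancel₀ _ (mul_ne_zero hd' hk')]
  rw [add_pow_card hF (x0 + θ * x1) (w ^ q), add_pow_card hF (c * (x0 + θ * x1)) (c' * w ^ q),
    mul_pow c, mul_pow c', pow_card_pow_card hK, e1]
  apply mul_right_cancel₀ hd
  linear_combination ((x0 + θ * x1) * (x0 + θ ^ q * x1) * (θ ^ q - θ)) * hc +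
    (w ^ q * w * (θ ^ q - θ)) * hc' + (x0 + θ * x1) * hww - (x0 + θ ^ q * x1) * hwwq

theorem pairFun_eq_zero (hK : Fintype.card K = q ^ 2) (hF : Fintype.card F = q) (P : PairParam F K q)
    {x y : Fin 2 → F} (h : pairFun P.θ P.c P.c' q x y = 0) : x = 0 ∧ y = 0 := by
  obtain ⟨θ, c, c', hθ, hne, hc, hc'⟩ := P
  have hd : θ ^ q - θ ≠ 0 := sub_ne_zero.mpr (pow_card_ne hK hF hθ)
  have hk : 1 + c * c' ^ q ≠ 0 := by
    intro h
    have hc0 : c' ≠ 0 := fun h0 => by simp [h0] at hc'
    exact hne (mul_right_cancel₀ (pow_ne_zero q hc0) (by linear_combination h - hc'))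
  have h0 := congrFun h 0
  have h1 := congrFun h 1
  simp only [pairFun, Matrix.cons_val_zero, Matrix.cons_val_one, Pi.zero_apply] at h0 h1
  have hb : (algebraMap F K (y 0) * θ ^ q - algebraMap F K (y 1)) / ((θ ^ q - θ) * (1 + c * c' ^ q)) = 0 := by
    refine eq_zero_of_pow_eq_zero (n := q) (mul_left_cancel₀ (sub_ne_zero.mpr hne.symm) ?_)
    rw [mul_zero]
    linear_combination h1 - c * h0
  rw [div_eq_zero_iff, or_iff_left (mul_ne_zero hd hk)] at hb
  have ha : algebraMap F K (x 0) + θ * algebraMap F K (x 1) = 0 := by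
    rw [hb, zero_div, zero_pow (show q ≠ 0 by have : 1 < q := hF ▸ Fintype.one_lt_card; omega),
      add_zero] at h0
    exact h0
  have hθq : θ ^ q ∉ Set.range (algebraMap F K) := by
    rintro ⟨u, hu⟩
    exact hθ ⟨u, by rw [← algebraMap_pow_card hF u, hu, pow_card_pow_card hK]⟩
  obtain ⟨hx0, hx1⟩ := mem_range_of_mul_add θ hθ _ _ ha
  obtain ⟨hy1, hy0⟩ := mem_range_of_mul_add (θ ^ q) hθq (-y 1) (y 0) (by
    rw [map_neg]; linear_combination hb)
  refine ⟨funext fun s => ?_, funext fun s => ?_⟩ <;> fin_cases s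
  · exact hx0
  · exact hx1
  · exact hy0
  · exact neg_eq_zero.mp hy1

omit [Fintype K] in
theorem pairFun_add (hF : Fintype.card F = q) (θ c c' : K) (x y x' y' : Fin 2 → F) :
    pairFun θ c c' q (x + x') (y + y') = pairFun θ c c' q x y + pairFun θ c c' q x' y' := by
  funext s
  fin_cases s <;>
    simp only [pairFun, Fin.zero_eta, Fin.mk_one, Matrix.cons_val_zero, Matrix.cons_val_one, Pi.add_apply,
      map_add, add_mul, add_sub_add_comm, add_div, add_pow_card hF] <;> ring

omit [Fintype K] in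
theorem pairFun_smul (hF : Fintype.card F = q) (θ c c' : K) (r : F) (x y : Fin 2 → F) :
    pairFun θ c c' q (r • x) (r • y) = r • pairFun θ c c' q x y := by
  funext s
  fin_cases s <;>
    simp only [pairFun, Fin.zero_eta, Fin.mk_one, Matrix.cons_val_zero, Matrix.cons_val_one, Pi.smul_apply,
      smul_eq_mul, Algebra.smul_def, map_mul, mul_assoc, ← mul_sub, mul_div_assoc] <;>
    rw [mul_pow (algebraMap F K r), algebraMap_pow_card hF] <;> ring

/-- `pairFun` applied pair by pair along `e`. -/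
noncomputable def pairsFun {k l : ℕ} (e : Fin k ≃ Fin l × Fin 2) (θ c c' : K) (q : ℕ)
    (x y : Fin k → F) : Fin k → K :=
  fun i => pairFun θ c c' q (fun s => x (e.symm ((e i).1, s))) (fun s => y (e.symm ((e i).1, s))) (e i).2

theorem pairsFun_norm (hK : Fintype.card K = q ^ 2) (hF : Fintype.card F = q) (P : PairParam F K q)
    {k l : ℕ} (e : Fin k ≃ Fin l × Fin 2) (x y : Fin k → F) :
    ∑ i, pairsFun e P.θ P.c P.c' q x y i * pairsFun e P.θ P.c P.c' q x y i ^ q =
      algebraMap F K (∑ i, x i * y i) := by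
  rw [← e.symm.sum_comp (fun i => pairsFun e P.θ P.c P.c' q x y i * pairsFun e P.θ P.c P.c' q x y i ^ q),
    ← e.symm.sum_comp (fun i => x i * y i), Fintype.sum_prod_type, Fintype.sum_prod_type, map_sum]
  refine Finset.sum_congr rfl fun j _ => ?_
  simp only [pairsFun, Equiv.apply_symm_apply]
  exact pairFun_norm hK hF P (fun s => x (e.symm (j, s))) (fun s => y (e.symm (j, s)))

theorem pairsFun_eq_zero (hK : Fintype.card K = q ^ 2) (hF : Fintype.card F = q) (P : PairParam F K q)
    {k l : ℕ} (e : Fin k ≃ Fin l × Fin 2) {x y : Fin k → F}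
    (h : pairsFun e P.θ P.c P.c' q x y = 0) : x = 0 ∧ y = 0 := by
  have hpair : ∀ j, (fun s => x (e.symm (j, s))) = 0 ∧ (fun s => y (e.symm (j, s))) = 0 := fun j => by
    refine pairFun_eq_zero hK hF P (funext fun s => ?_)
    have := congrFun h (e.symm (j, s))
    simp only [pairsFun, Equiv.apply_symm_apply, Pi.zero_apply] at this
    exact this
  refine ⟨funext fun i => ?_, funext fun i => ?_⟩
  · have := congrFun (hpair (e i).1).1 (e i).2
    simpa using this
  · have := congrFun (hpair (e i).1).2 (e i).2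
    simpa using this

omit [Fintype K] in
theorem pairsFun_add (hF : Fintype.card F = q) {k l : ℕ} (e : Fin k ≃ Fin l × Fin 2) (θ c c' : K)
    (x y x' y' : Fin k → F) :
    pairsFun e θ c c' q (x + x') (y + y') = pairsFun e θ c c' q x y + pairsFun e θ c c' q x' y' :=
  funext fun i => congrFun (pairFun_add hF θ c c' (fun s => x (e.symm ((e i).1, s)))
    (fun s => y (e.symm ((e i).1, s))) (fun s => x' (e.symm ((e i).1, s))) (fun s => y' (e.symm ((e i).1, s)))) (e i).2

omit [Fintype K] in
theorem pairsFun_smul (hF : Fintype.card F = q) {k l : ℕ} (e : Fin k ≃ Fin l × Fin 2) (θ c c' : K)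
    (r : F) (x y : Fin k → F) :
    pairsFun e θ c c' q (r • x) (r • y) = r • pairsFun e θ c c' q x y :=
  funext fun i => congrFun (pairFun_smul hF θ c c' r (fun s => x (e.symm ((e i).1, s)))
    (fun s => y (e.symm ((e i).1, s)))) (e i).2

omit [Fintype ι] [DecidableEq ι] in
/-- An injective linear map between spaces of the same finite cardinality, as an equivalence. -/
theorem exists_linearEquiv [Finite ι] (L : (ι → F) →ₗ[F] (Fin m → K)) (hL : ∀ v, L v = 0 → v = 0)
    (hcard : Nat.card (ι → F) = Nat.card (Fin m → K)) :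
    ∃ E : (ι → F) ≃ₗ[F] (Fin m → K), ∀ v, E v = L v :=
  ⟨LinearEquiv.ofBijective L (Function.Injective.bijective_of_nat_card_le
    ((injective_iff_map_eq_zero L).mpr hL) hcard.ge), fun _ => rfl⟩

end CfsgLib.Classes
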