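import Mathlib

/-!
The adjoint `X ↦ J⁻¹ Xᵀ J` of the standard alternating form.
-/

set_option autoImplicit false

namespace CfsgLib.Classes

open Matrix

variable {R : Type*} [CommRing R] {l : Type*} [Fintype l] [DecidableEq l]

/-- Adjoint of a matrix with respect to the standard alternating form. -/
def spAdj (X : Matrix (l ⊕ l) (l ⊕ l) R) : Matrix (l ⊕ l) (l ⊕ l) R :=
  -(J l R * Xᵀ * J l R)

theorem J_mul_J : J l R * J l R = -1 := J_squared l R

theorem spAdj_one : spAdj (1 : Matrix (l ⊕ l) (l ⊕ l) R) = 1 := by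
  simp [spAdj, J_mul_J]

theorem spAdj_add (X Y : Matrix (l ⊕ l) (l ⊕ l) R) : spAdj (X + Y) = spAdj X + spAdj Y := by
  simp [spAdj, transpose_add, Matrix.mul_add, Matrix.add_mul]
  abel

theorem spAdj_smul (c : R) (X : Matrix (l ⊕ l) (l ⊕ l) R) : spAdj (c • X) = c • spAdj X := by
  simp [spAdj, transpose_smul, smul_neg]

theorem spAdj_mul (X Y : Matrix (l ⊕ l) (l ⊕ l) R) : spAdj (X * Y) = spAdj Y * spAdj X := by
  simp only [spAdj, transpose_mul, Matrix.neg_mul, Matrix.mul_neg, neg_neg]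
  calc -(J l R * (Yᵀ * Xᵀ) * J l R) = J l R * Yᵀ * (J l R * J l R) * (Xᵀ * J l R) := by
        rw [J_mul_J]; simp [Matrix.mul_assoc]
    _ = J l R * Yᵀ * J l R * (J l R * Xᵀ * J l R) := by simp only [Matrix.mul_assoc]

theorem spAdj_spAdj (X : Matrix (l ⊕ l) (l ⊕ l) R) : spAdj (spAdj X) = X := by
  simp only [spAdj, transpose_neg, transpose_mul, transpose_transpose, J_transpose, Matrix.neg_mul,
    Matrix.mul_neg, neg_neg]
  calc J l R * (J l R * (X * J l R)) * J l R = (J l R * J l R) * X * (J l R * J l R) := by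
        simp only [Matrix.mul_assoc]
    _ = X := by rw [J_mul_J]; simp

theorem spAdj_sub (X Y : Matrix (l ⊕ l) (l ⊕ l) R) : spAdj (X - Y) = spAdj X - spAdj Y := by
  simp [spAdj, transpose_sub, Matrix.mul_sub, Matrix.sub_mul]
  abel

theorem spAdj_pow (X : Matrix (l ⊕ l) (l ⊕ l) R) (k : ℕ) : spAdj (X ^ k) = spAdj X ^ k := by
  induction k with
  | zero => simp [spAdj_one]
  | succ k ih => rw [pow_succ, spAdj_mul, ih, ← pow_succ']

theorem mem_symplecticGroup_iff_spAdj {A : Matrix (l ⊕ l) (l ⊕ l) R} :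
    A ∈ symplecticGroup l R ↔ spAdj A * A = 1 := by
  rw [SymplecticGroup.mem_iff']
  constructor
  · intro h
    calc spAdj A * A = -(J l R * (Aᵀ * J l R * A)) := by simp [spAdj, Matrix.mul_assoc]
      _ = 1 := by rw [h, J_mul_J]; simp
  · intro h
    calc Aᵀ * J l R * A = -((J l R * J l R) * (Aᵀ * J l R * A)) := by rw [J_mul_J]; simp
      _ = J l R * (spAdj A * A) := by simp [spAdj, Matrix.mul_assoc]
      _ = J l R := by rw [h, Matrix.mul_one]

theorem spAdj_mul_self {A : Matrix (l ⊕ l) (l ⊕ l) R} (hA : A ∈ symplecticGroup l R) :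
    spAdj A * A = 1 := mem_symplecticGroup_iff_spAdj.mp hA

theorem self_mul_spAdj {A : Matrix (l ⊕ l) (l ⊕ l) R} (hA : A ∈ symplecticGroup l R) :
    A * spAdj A = 1 := mul_eq_one_comm.mp (spAdj_mul_self hA)

/-- The adjoint of an invertible matrix, as a unit. -/
def spAdjUnit (g : GL (l ⊕ l) R) : GL (l ⊕ l) R :=
  ⟨spAdj (g : Matrix (l ⊕ l) (l ⊕ l) R), spAdj ((g⁻¹ : GL (l ⊕ l) R) : Matrix (l ⊕ l) (l ⊕ l) R),
    by rw [← spAdj_mul, Units.inv_mul, spAdj_one], by rw [← spAdj_mul, Units.mul_inv, spAdj_one]⟩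

theorem coe_spAdjUnit (g : GL (l ⊕ l) R) :
    (spAdjUnit g : Matrix (l ⊕ l) (l ⊕ l) R) = spAdj (g : Matrix (l ⊕ l) (l ⊕ l) R) := rfl

theorem spAdjUnit_mul (g h : GL (l ⊕ l) R) : spAdjUnit (g * h) = spAdjUnit h * spAdjUnit g :=
  Units.ext (spAdj_mul _ _)

theorem spAdjUnit_spAdjUnit (g : GL (l ⊕ l) R) : spAdjUnit (spAdjUnit g) = g :=
  Units.ext (spAdj_spAdj _)

end CfsgLib.Classes
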