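import Cfsg.Agent.Lib.Classes.InvolutionCentralizer
import Cfsg.Agent.Lib.Classes.InvolutionCount
import Cfsg.Agent.Lib.Classes.OrthonormalCount

/-!
Centralisers of involutions of symplectic matrix groups in characteristic two.
-/

set_option autoImplicit false
set_option linter.style.haveILetI false

namespace CfsgLib.Classes.InvTwo

open Module
open scoped Matrix

variable {F : Type*} [Field F] [Fintype F] [CharP F 2] {m : ℕ}

/-- The nilpotent part of a symplectic matrix. -/
noncomputable def spNil (t : Matrix.symplecticGroup (Fin m) F) : (Fin m ⊕ Fin m → F) →ₗ[F] (Fin m ⊕ Fin m → F) :=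
  (t : Matrix (Fin m ⊕ Fin m) (Fin m ⊕ Fin m) F).mulVecLin - LinearMap.id

omit [Fintype F] in
theorem isNilSelf_spNil (t : Matrix.symplecticGroup (Fin m) F) (ht : t ^ 2 = 1) :
    IsNilSelf (CfsgLib.Omega.sympBilin m F) (spNil t) := by
  refine isNilSelf_sub_id (fun u v => ?_) fun v => ?_
  · simp only [CfsgLib.Omega.sympBilin_apply, Matrix.mulVecLin_apply]
    exact CfsgLib.Omega.sympForm_mulVec_of_mem t.2 u v
  · simp only [Matrix.mulVecLin_apply, Matrix.mulVec_mulVec]
    have h : (t : Matrix (Fin m ⊕ Fin m) (Fin m ⊕ Fin m) F) * t = 1 := by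
      have := congrArg Subtype.val ht
      simpa [sq] using this
    rw [h, Matrix.one_mulVec]

omit [Fintype F] [CharP F 2] in
theorem finrank_spNil (t : Matrix.symplecticGroup (Fin m) F) {s : ℕ}
    (hs : ((t : Matrix (Fin m ⊕ Fin m) (Fin m ⊕ Fin m) F) - 1).rank = s) :
    finrank F (LinearMap.range (spNil t)) = s := by
  rw [← hs, Matrix.rank]
  have : spNil t = ((t : Matrix (Fin m ⊕ Fin m) (Fin m ⊕ Fin m) F) - 1).mulVecLin := by
    refine LinearMap.ext fun v => ?_
    simp [spNil]
  rw [this]

omit [Fintype F] [CharP F 2] in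
theorem card_centralizer_eq (t : Matrix.symplecticGroup (Fin m) F) :
    Nat.card (Subgroup.centralizer ({t} : Set (Matrix.symplecticGroup (Fin m) F))) =
      Nat.card (CommIsom (CfsgLib.Omega.sympBilin m F) (spNil t)) := by
  classical
  let toE : Matrix.symplecticGroup (Fin m) F → ((Fin m ⊕ Fin m → F) ≃ₗ[F] (Fin m ⊕ Fin m → F)) :=
    fun g => Geometric.apEquiv (CfsgLib.Forms.spToGL m F g)
  have htoE : ∀ g v, toE g v = (g : Matrix (Fin m ⊕ Fin m) (Fin m ⊕ Fin m) F) *ᵥ v := fun g v => by
    simp [toE, Geometric.ap_def, CfsgLib.Forms.coe_spToGL]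
  refine Nat.card_congr (Equiv.ofBijective (fun g => ⟨toE g.1, fun u v => ?_, fun v => ?_⟩) ⟨fun g g' h => ?_, fun e => ?_⟩)
  · simp only [htoE, CfsgLib.Omega.sympBilin_apply]
    exact CfsgLib.Omega.sympForm_mulVec_of_mem g.1.2 u v
  · have hg := congrArg (fun M : Matrix.symplecticGroup (Fin m) F =>
      (M : Matrix (Fin m ⊕ Fin m) (Fin m ⊕ Fin m) F) *ᵥ v) (Subgroup.mem_centralizer_singleton_iff.1 g.2)
    simp only [htoE, spNil, LinearMap.sub_apply, LinearMap.id_apply, Matrix.mulVecLin_apply, Matrix.mulVec_sub]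
    simp only [Submonoid.coe_mul, ← Matrix.mulVec_mulVec] at hg
    rw [hg]
  · apply Subtype.ext; apply Subtype.ext
    refine Matrix.ext_of_mulVec_single fun i => ?_
    rw [← htoE, ← htoE]
    exact congrArg (fun e : CommIsom (CfsgLib.Omega.sympBilin m F) (spNil t) => e.1 (Pi.single i 1)) h
  · have hsym : ∀ u v, Cfsg.sympForm m F (e.1 u) (e.1 v) = Cfsg.sympForm m F u v := fun u v => by
      simpa [CfsgLib.Omega.sympBilin_apply] using e.2.1 u v
    refine ⟨⟨CfsgLib.Forms.spOfEquiv e.1 hsym, Subgroup.mem_centralizer_singleton_iff.2 ?_⟩, ?_⟩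
    · apply Subtype.ext
      refine Matrix.ext_of_mulVec_single fun i => ?_
      simp only [Submonoid.coe_mul, ← Matrix.mulVec_mulVec, CfsgLib.Forms.spOfEquiv_mulVec]
      have h := e.2.2 (Pi.single i 1)
      simp only [spNil, LinearMap.sub_apply, LinearMap.id_apply, Matrix.mulVecLin_apply, map_sub,
        sub_left_inj] at h
      exact h
    · apply Subtype.ext
      exact LinearEquiv.ext fun v => by simp [htoE, CfsgLib.Forms.spOfEquiv_mulVec]

theorem exponent_eq (d s : ℕ) :
    2 * d * s + (s + 1).choose 2 = 2 * (s + d) * s - (3 * s ^ 2 - s) / 2 := by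
  obtain ⟨k, hk⟩ := Nat.even_mul_succ_self s
  rw [Nat.choose_two_right, Nat.add_sub_cancel, sq, show 2 * (s + d) * s = 2 * (d * s) + 2 * (s * s) by ring,
    show 2 * d * s = 2 * (d * s) by ring, show (s + 1) * s = s * s + s by ring]
  rw [show s * (s + 1) = s * s + s by ring] at hk
  have : s ≤ s * s := Nat.le_mul_self s
  generalize s * s = X at *
  generalize d * s = Y at *
  omega

/-- The centraliser order in terms of an adapted family. -/
theorem card_centralizer_of_adapted (t : Matrix.symplecticGroup (Fin m) F) (ht : t ^ 2 = 1) {s : ℕ}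
    (hs : finrank F (LinearMap.range (spNil t)) = s) {ι : Type} [Fintype ι] [DecidableEq ι] {σ : ι → ι}
    (hσ : Function.Involutive σ) {x : ι → Fin m ⊕ Fin m → F}
    (hx : Adapted (CfsgLib.Omega.sympBilin m F) (spNil t) σ x) :
    Nat.card (Subgroup.centralizer ({t} : Set (Matrix.symplecticGroup (Fin m) F))) =
      Fintype.card F ^ (2 * m * s - (3 * s ^ 2 - s) / 2) *
        Nat.card {A : Matrix ι ι F // A * pairMat F σ * Aᵀ = pairMat F σ} *
        Nat.card (Matrix.symplecticGroup (Fin (m - s)) F) := by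
  have hN := isNilSelf_spNil t ht
  have hB := CfsgLib.Forms.sympBilin_nondeg m F
  have hA := CfsgLib.Forms.sympBilin_isAlt m F
  have hι : Fintype.card ι = s := hx.card.trans hs
  have hV : finrank F (Fin m ⊕ Fin m → F) = 2 * m := by simp [finrank_fintype_fun_eq_card, two_mul]
  have hle : s ≤ m := by
    have h2 := two_mul_rank_le hB hA hN
    omega
  obtain ⟨h1, h2⟩ := card_subIsom hB hA hN hσ hx (d := m - s) (by rw [hV, hι]; omega)
  rw [card_centralizer_eq, card_commIsom hB hA hN hσ hx, card_adapted hB hA hN hσ hx, h1, h2, hι]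
  obtain ⟨d, rfl⟩ := Nat.exists_eq_add_of_le hle
  rw [Nat.add_sub_cancel_left, ← exponent_eq, pow_add, pow_mul, mul_assoc 2 d s]
  ring

/-- The centraliser order for the alternating type. -/
theorem card_centralizer_alt (t : Matrix.symplecticGroup (Fin m) F) (ht : t ^ 2 = 1) {s : ℕ}
    (hs : finrank F (LinearMap.range (spNil t)) = s)
    (halt : IsAltType (CfsgLib.Omega.sympBilin m F) (spNil t)) :
    Nat.card (Subgroup.centralizer ({t} : Set (Matrix.symplecticGroup (Fin m) F))) =
      Fintype.card F ^ (2 * m * s - (3 * s ^ 2 - s) / 2) *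
        Nat.card (Matrix.symplecticGroup (Fin (s / 2)) F) *
        Nat.card (Matrix.symplecticGroup (Fin (m - s)) F) := by
  classical
  obtain ⟨l, x, hx⟩ := (exists_adapted (CfsgLib.Forms.sympBilin_nondeg m F) (CfsgLib.Forms.sympBilin_isAlt m F)
    (isNilSelf_spNil t ht)).1 halt
  have hl : s / 2 = l := by
    have := hx.card.trans hs
    simp only [Fintype.card_sum, Fintype.card_fin] at this
    omega
  rw [card_centralizer_of_adapted t ht hs (fun a => Sum.swap_swap a) hx, hl]
  have hJ : pairMat F (Sum.swap : Fin l ⊕ Fin l → Fin l ⊕ Fin l) = Matrix.J (Fin l) F := by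
    ext i j
    rcases i with i | i <;> rcases j with j | j <;> simp [pairMat, Matrix.J, Matrix.one_apply, CharTwo.neg_eq]
  rw [hJ]
  rfl

/-- The centraliser order for the non-alternating type. -/
theorem card_centralizer_nonalt (t : Matrix.symplecticGroup (Fin m) F) (ht : t ^ 2 = 1) {s : ℕ}
    (hs : finrank F (LinearMap.range (spNil t)) = s)
    (halt : ¬ IsAltType (CfsgLib.Omega.sympBilin m F) (spNil t)) :
    Nat.card (Subgroup.centralizer ({t} : Set (Matrix.symplecticGroup (Fin m) F))) =
      Fintype.card F ^ (2 * m * s - (3 * s ^ 2 - s) / 2) * Nat.card (OrthoMat F s) *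
        Nat.card (Matrix.symplecticGroup (Fin (m - s)) F) := by
  classical
  obtain ⟨x, hx⟩ := (exists_adapted (CfsgLib.Forms.sympBilin_nondeg m F) (CfsgLib.Forms.sympBilin_isAlt m F)
    (isNilSelf_spNil t ht)).2 halt
  subst hs
  rw [card_centralizer_of_adapted t ht rfl (fun a => rfl) hx]
  have hJ : pairMat F (id : Fin (finrank F (LinearMap.range (spNil t))) → _) = 1 := by
    ext i j; simp [pairMat, Matrix.one_apply]
  rw [hJ]
  simp only [Matrix.mul_one]

end CfsgLib.Classes.InvTwo
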