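import Cfsg.Agent.Lib.Classes.CyclicNilpotent
import Cfsg.Agent.Lib.Classes.SympAdjoint

/-!
Invertible elements of the commutant of a regular unipotent element of `Sp_{2(k+1)}(q)`, `q` odd, under
`g ↦ g* g`.
-/

set_option autoImplicit false

namespace CfsgLib.Classes

open Matrix

variable {F : Type*} [Field F] {k : ℕ}

/-- Matrices of size `2(k+1)`. -/
abbrev SpMat (k : ℕ) (F : Type*) := Matrix (Fin (k + 1) ⊕ Fin (k + 1)) (Fin (k + 1) ⊕ Fin (k + 1)) F

/-- Invertible matrices of size `2(k+1)`. -/
abbrev SpGL (k : ℕ) (F : Type*) [Field F] := GL (Fin (k + 1) ⊕ Fin (k + 1)) F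

/-- A symplectic regular unipotent element in odd characteristic. -/
structure IsRegularUnipotent (u : SpMat k F) : Prop where
  two_ne : (2 : F) ≠ 0
  mem : u ∈ symplecticGroup (Fin (k + 1)) F
  nil : (u - 1) ^ (2 * (k + 1)) = 0
  rank_eq : (u - 1).rank = 2 * (k + 1) - 1

theorem card_index (k : ℕ) : Fintype.card (Fin (k + 1) ⊕ Fin (k + 1)) = 2 * (k + 1) := by
  simp [two_mul]

theorem card_pos' (k : ℕ) : 0 < Fintype.card (Fin (k + 1) ⊕ Fin (k + 1)) := by
  rw [card_index]; omega

/-- The skew nilpotent `u - u⁻¹`. -/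
def skewNil (u : SpMat k F) : SpMat k F := u - spAdj u

variable {u : SpMat k F}

theorem IsRegularUnipotent.factor (h : IsRegularUnipotent u) :
    skewNil u = (u - 1) * (1 + spAdj u) ∧ IsUnit (1 + spAdj u) ∧ Commute (u - 1) (1 + spAdj u) := by
  have h1 := self_mul_spAdj h.mem
  have h2 := spAdj_mul_self h.mem
  have hc : Commute u (spAdj u) := h1.trans h2.symm
  refine ⟨?_, ?_, ((hc.sub_left (Commute.one_left _)).symm |> fun t => (t.add_left (Commute.one_left _)).symm |> fun t => by
    simpa [add_comm] using t)⟩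
  · rw [skewNil]
    simp [Matrix.mul_add, Matrix.sub_mul, h1]
  · have : (1 : SpMat k F) + spAdj u = spAdj u * ((u - 1) + (2 : F) • 1) := by
      rw [Matrix.mul_add, Matrix.mul_sub, h2, mul_smul_comm, Matrix.mul_one, two_smul]
      abel
    rw [this]
    refine IsUnit.mul ⟨⟨spAdj u, u, h2, h1⟩, rfl⟩ ?_
    have hu : IsUnit ((2 : F) • (1 : SpMat k F)) := by
      rw [← Algebra.algebraMap_eq_smul_one]
      exact (isUnit_iff_ne_zero.mpr h.two_ne).map _
    exact (IsNilpotent.mk _ _ h.nil).isUnit_add_right_of_commute hu ((Commute.one_right _).smul_right _)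

theorem IsRegularUnipotent.skewNil_pow (h : IsRegularUnipotent u) :
    skewNil u ^ Fintype.card (Fin (k + 1) ⊕ Fin (k + 1)) = 0 := by
  obtain ⟨h1, -, h3⟩ := h.factor
  rw [h1, h3.mul_pow, card_index, h.nil, Matrix.zero_mul]

theorem IsRegularUnipotent.exists_vector (h : IsRegularUnipotent u) :
    ∃ v, (skewNil u ^ (Fintype.card (Fin (k + 1) ⊕ Fin (k + 1)) - 1)) *ᵥ v ≠ 0 := by
  obtain ⟨h1, h2, -⟩ := h.factor
  refine exists_cyclic_vector _ (card_pos' k) ?_
  rw [h1, Matrix.rank_mul_eq_left_of_isUnit_det _ _ ((Matrix.isUnit_iff_isUnit_det _).mp h2), h.rank_eq, card_index]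

theorem IsRegularUnipotent.commute_iff (h : IsRegularUnipotent u) (X : SpMat k F) :
    Commute X u ↔ Commute X (skewNil u) := by
  constructor
  · intro hX
    have : Commute X (spAdj u) :=
      Commute.units_inv_right (u := ⟨u, spAdj u, self_mul_spAdj h.mem, spAdj_mul_self h.mem⟩) hX
    exact hX.sub_right this
  · intro hX
    obtain ⟨v, hv⟩ := h.exists_vector
    have hu : Commute u (skewNil u) :=
      (Commute.refl u).sub_right ((self_mul_spAdj h.mem).trans (spAdj_mul_self h.mem).symm)
    exact commute_of_commute h.skewNil_pow hv hX hu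

/-- The sign twist of coefficients realising the adjoint. -/
def signTwist (c : Fin (Fintype.card (Fin (k + 1) ⊕ Fin (k + 1))) → F) :
    Fin (Fintype.card (Fin (k + 1) ⊕ Fin (k + 1))) → F := fun i => (-1) ^ (i : ℕ) * c i

theorem spAdj_powSum (u : SpMat k F) (c : Fin (Fintype.card (Fin (k + 1) ⊕ Fin (k + 1))) → F) :
    spAdj (powSum (skewNil u) c) = powSum (skewNil u) (signTwist c) := by
  have hN : spAdj (skewNil u) = -skewNil u := by
    rw [skewNil, spAdj_sub, spAdj_spAdj, neg_sub]
  rw [powSum_apply, powSum_apply]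
  let φ : SpMat k F →+ SpMat k F := AddMonoidHom.mk' spAdj spAdj_add
  show φ _ = _
  rw [map_sum]
  refine Finset.sum_congr rfl fun i _ => ?_
  show spAdj _ = _
  rw [spAdj_smul, spAdj_pow, hN, ← neg_one_smul F (skewNil u), smul_pow, smul_smul, signTwist, mul_comm (c i)]

/-- The invertible matrices commuting with `u`. -/
def commutant (u : SpMat k F) : Subgroup (SpGL k F) where
  carrier := {g | Commute (g : SpMat k F) u}
  mul_mem' := fun {a b} ha hb => by
    show Commute ((a * b : SpGL k F) : SpMat k F) u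
    rw [Units.val_mul]; exact ha.mul_left hb
  one_mem' := Commute.one_left u
  inv_mem' := fun {a} ha => Commute.units_inv_left ha

theorem mem_commutant {g : SpGL k F} :
    g ∈ commutant u ↔ Commute (g : SpMat k F) u := Iff.rfl

theorem IsRegularUnipotent.mul_comm (h : IsRegularUnipotent u) (a b : commutant u) : a * b = b * a := by
  obtain ⟨v, hv⟩ := h.exists_vector
  exact Subtype.ext (Units.ext (commute_of_commute h.skewNil_pow hv ((h.commute_iff _).mp a.2) ((h.commute_iff _).mp b.2)))

theorem spAdjUnit_mem (hu : u ∈ symplecticGroup (Fin (k + 1)) F) {g : SpGL k F}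
    (hg : g ∈ commutant u) : spAdjUnit g ∈ commutant u := by
  rw [mem_commutant, coe_spAdjUnit]
  have h1 : Commute (spAdj (g : SpMat k F)) (spAdj u) := by
    show spAdj (g : SpMat k F) * spAdj u = spAdj u * spAdj (g : SpMat k F)
    rw [← spAdj_mul, ← spAdj_mul, (mem_commutant.mp hg).eq]
  exact Commute.units_inv_right (u := ⟨spAdj u, u, spAdj_mul_self hu, self_mul_spAdj hu⟩) h1

/-- `g ↦ g* g` on the commutant. -/
def adjNorm (h : IsRegularUnipotent u) : commutant u →* commutant u :=
  MonoidHom.mk' (fun g => ⟨spAdjUnit (g : SpGL k F), spAdjUnit_mem h.mem g.2⟩ * g) fun a b => by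
    have e : (⟨spAdjUnit ((a * b : commutant u) : SpGL k F), spAdjUnit_mem h.mem (a * b).2⟩ : commutant u) =
        ⟨spAdjUnit (a : SpGL k F), spAdjUnit_mem h.mem a.2⟩ * ⟨spAdjUnit (b : SpGL k F), spAdjUnit_mem h.mem b.2⟩ := by
      rw [h.mul_comm]
      exact Subtype.ext (spAdjUnit_mul _ _)
    rw [e, mul_assoc, ← mul_assoc _ a b, h.mul_comm _ a, mul_assoc, ← mul_assoc]

theorem coe_adjNorm (h : IsRegularUnipotent u) (g : commutant u) :
    ((adjNorm h g : commutant u) : SpGL k F) = spAdjUnit (g : SpGL k F) * g := rfl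

/-- Coefficients of an element of the commutant. -/
noncomputable def coeff (h : IsRegularUnipotent u) (g : commutant u) :
    Fin (Fintype.card (Fin (k + 1) ⊕ Fin (k + 1))) → F :=
  (exists_powSum_eq h.skewNil_pow h.exists_vector.choose_spec ((h.commute_iff _).mp g.2)).choose

theorem powSum_coeff (h : IsRegularUnipotent u) (g : commutant u) :
    powSum (skewNil u) (coeff h g) = ((g : SpGL k F) : SpMat k F) :=
  (exists_powSum_eq h.skewNil_pow h.exists_vector.choose_spec ((h.commute_iff _).mp g.2)).choose_spec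

theorem coeff_unique (h : IsRegularUnipotent u) (g : commutant u) {c}
    (hc : powSum (skewNil u) c = ((g : SpGL k F) : SpMat k F)) : coeff h g = c :=
  powSum_injective h.skewNil_pow h.exists_vector.choose_spec ((powSum_coeff h g).trans hc.symm)

/-- Constant coefficient, as a homomorphism to the units. -/
noncomputable def constCoeff (h : IsRegularUnipotent u) : commutant u →* Fˣ :=
  MonoidHom.mk' (fun g => Units.mk0 (coeff h g ⟨0, card_pos' k⟩)
      ((isUnit_powSum_iff h.skewNil_pow (card_pos' k) h.exists_vector.choose_spec _).mp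
        (by rw [powSum_coeff]; exact (g : SpGL k F).isUnit)))
    fun a b => Units.ext <| by
      simp only [Units.val_mk0, Units.val_mul]
      have e := powSum_mulVec_top h.skewNil_pow (card_pos' k) h.exists_vector.choose (coeff h (a * b))
      rw [powSum_coeff, Subgroup.coe_mul, Units.val_mul, ← powSum_coeff h a, ← powSum_coeff h b,
        ← Matrix.mulVec_mulVec, powSum_mulVec_top h.skewNil_pow (card_pos' k), Matrix.mulVec_smul,
        powSum_mulVec_top h.skewNil_pow (card_pos' k), smul_smul, _root_.mul_comm (coeff h b _)] at e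
      exact (smul_left_injective F h.exists_vector.choose_spec e).symm

theorem val_constCoeff (h : IsRegularUnipotent u) (g : commutant u) :
    ((constCoeff h g : Fˣ) : F) = coeff h g ⟨0, card_pos' k⟩ := rfl

theorem coeff_spAdj (h : IsRegularUnipotent u) (g g' : commutant u)
    (hg : (g' : SpGL k F) = spAdjUnit (g : SpGL k F)) : coeff h g' = signTwist (coeff h g) :=
  coeff_unique h g' (by rw [hg, coe_spAdjUnit, ← spAdj_powSum, powSum_coeff])

theorem constCoeff_adjNorm (h : IsRegularUnipotent u) (g : commutant u) :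
    constCoeff h (adjNorm h g) = constCoeff h g ^ 2 := by
  rw [show adjNorm h g = ⟨spAdjUnit (g : SpGL k F), spAdjUnit_mem h.mem g.2⟩ * g from rfl, map_mul, sq]
  refine congrArg (· * constCoeff h g) (Units.ext ?_)
  rw [val_constCoeff, coeff_spAdj h g ⟨_, spAdjUnit_mem h.mem g.2⟩ rfl, val_constCoeff]
  simp [signTwist]

/-- The self-adjoint elements with constant coefficient one. -/
noncomputable def principal (h : IsRegularUnipotent u) : Subgroup (commutant u) where
  carrier := {g | spAdjUnit (g : SpGL k F) = g ∧ constCoeff h g = 1}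
  mul_mem' := fun {a b} ha hb => by
    refine ⟨?_, by rw [map_mul, ha.2, hb.2, one_mul]⟩
    rw [Subgroup.coe_mul, spAdjUnit_mul, ha.1, hb.1]
    exact congrArg Subtype.val (h.mul_comm b a)
  one_mem' := ⟨Units.ext spAdj_one, map_one _⟩
  inv_mem' := fun {a} ha => by
    refine ⟨?_, by rw [map_inv, ha.2, inv_one]⟩
    have h1 : spAdjUnit ((a : SpGL k F)⁻¹) * spAdjUnit (a : SpGL k F) = 1 := by
      rw [← spAdjUnit_mul, mul_inv_cancel]; exact Units.ext spAdj_one
    rw [ha.1] at h1
    rw [Subgroup.coe_inv]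
    exact eq_inv_of_mul_eq_one_left h1

/-- Scalars in the commutant. -/
def scalarC (u : SpMat k F) : Fˣ →* commutant u :=
  (GeneralLinearGroup.scalar (Fin (k + 1) ⊕ Fin (k + 1))).codRestrict _ fun s => by
    rw [mem_commutant, GeneralLinearGroup.coe_scalar]
    exact Matrix.scalar_commute _ (fun r => Commute.all _ r) _

theorem constCoeff_scalarC (h : IsRegularUnipotent u) (s : Fˣ) : constCoeff h (scalarC u s) = s := by
  refine Units.ext ?_
  rw [val_constCoeff, coeff_unique h (scalarC u s) (c := Pi.single ⟨0, card_pos' k⟩ (s : F)) ?_, Pi.single_eq_same]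
  rw [powSum_apply, Finset.sum_eq_single ⟨0, card_pos' k⟩] <;> simp +contextual [scalarC, Matrix.smul_one_eq_diagonal]

theorem spAdjUnit_scalarC (u : SpMat k F) (s : Fˣ) :
    spAdjUnit ((scalarC u s : commutant u) : SpGL k F) = (scalarC u s : commutant u) := by
  refine Units.ext ?_
  rw [coe_spAdjUnit]
  show spAdj (Matrix.scalar _ (s : F)) = Matrix.scalar _ (s : F)
  rw [Matrix.scalar_apply, ← Matrix.smul_one_eq_diagonal, spAdj_smul, spAdj_one]

variable [Fintype F]

/-- Splitting of the index set by parity. -/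
def parityEquiv (k : ℕ) : Fin (k + 1) × Fin 2 ≃ Fin (Fintype.card (Fin (k + 1) ⊕ Fin (k + 1))) :=
  finProdFinEquiv.trans (finCongr (by rw [card_index]; ring))

theorem parityEquiv_val (k : ℕ) (p : Fin (k + 1) × Fin 2) :
    ((parityEquiv k p : Fin _) : ℕ) = p.2 + 2 * p.1 := by
  simp [parityEquiv, finProdFinEquiv_apply_val]

theorem card_commutant (h : IsRegularUnipotent u) :
    Nat.card (commutant u) = (Fintype.card F - 1) * Fintype.card F ^ (2 * k + 1) := by
  classical
  obtain ⟨v, hv⟩ := h.exists_vector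
  let e : commutant u ≃ {c : Fin (Fintype.card (Fin (k + 1) ⊕ Fin (k + 1))) → F // c ⟨0, card_pos' k⟩ ≠ 0} :=
    Equiv.ofBijective (fun g => ⟨coeff h g, (constCoeff h g).ne_zero⟩) ⟨fun a b hab => by
      refine Subtype.ext (Units.ext ?_)
      rw [← powSum_coeff h a, ← powSum_coeff h b]
      exact congrArg _ (congrArg Subtype.val hab :),
    fun ⟨c, hc⟩ => by
      have hu : IsUnit (powSum (skewNil u) c) := (isUnit_powSum_iff h.skewNil_pow (card_pos' k) hv c).mpr hc
      let g : commutant u := ⟨hu.unit, by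
        rw [mem_commutant, IsUnit.unit_spec]
        exact (h.commute_iff _).mpr (commute_powSum (skewNil u) _ (Commute.refl _) c).symm⟩
      exact ⟨g, Subtype.ext (coeff_unique h g (IsUnit.unit_spec hu).symm)⟩⟩
  rw [Nat.card_congr e]
  have hn := card_index k
  generalize hgen : (⟨0, card_pos' k⟩ : Fin (Fintype.card (Fin (k + 1) ⊕ Fin (k + 1)))) = i₀
  let f : {c : Fin (Fintype.card (Fin (k + 1) ⊕ Fin (k + 1))) → F // c i₀ ≠ 0} ≃
      {a : F // a ≠ 0} × ({j // j ≠ i₀} → F) :=
    ((Equiv.funSplitAt i₀ F).subtypeEquiv (p := fun c => c i₀ ≠ 0)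
      (q := fun p : F × ({j // j ≠ i₀} → F) => p.1 ≠ 0) (fun c => Iff.rfl)).trans
      (Equiv.prodSubtypeFstEquivSubtypeProd (p := fun a : F => a ≠ 0))
  rw [Nat.card_congr f, Nat.card_prod, Nat.card_fun, Nat.card_eq_fintype_card, Nat.card_eq_fintype_card,
    Nat.card_eq_fintype_card, Fintype.card_subtype_compl, Fintype.card_subtype_compl, Fintype.card_subtype_eq,
    Fintype.card_subtype_eq, Fintype.card_fin, hn, show 2 * (k + 1) - 1 = 2 * k + 1 by omega]

theorem card_principal (h : IsRegularUnipotent u) : Nat.card (principal h) = Fintype.card F ^ k := by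
  classical
  obtain ⟨v, hv⟩ := h.exists_vector
  let i : Fin k → Fin (Fintype.card (Fin (k + 1) ⊕ Fin (k + 1))) := fun j => parityEquiv k (j.succ, 0)
  have hfix : ∀ g : commutant u, spAdjUnit (g : SpGL k F) = g →
      ∀ j : Fin (Fintype.card (Fin (k + 1) ⊕ Fin (k + 1))), Odd (j : ℕ) → coeff h g j = 0 := fun g hg j hj => by
    have e := congrFun (coeff_spAdj h g g hg.symm) j
    rw [signTwist, hj.neg_one_pow] at e
    have : 2 * coeff h g j = 0 := by linear_combination e
    exact (mul_eq_zero.mp this).resolve_left h.two_ne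
  let f : principal h → (Fin k → F) := fun g j => coeff h (g : commutant u) (i j)
  have hbij : Function.Bijective f := by
    constructor
    · intro a b hab
      refine Subtype.ext (Subtype.ext (Units.ext ?_))
      rw [← powSum_coeff h a.1, ← powSum_coeff h b.1]
      refine congrArg _ (funext fun j => ?_)
      obtain ⟨⟨p, s⟩, rfl⟩ := (parityEquiv k).surjective j
      fin_cases s
      · refine Fin.cases ?_ (fun p => ?_) p
        · have h0 : parityEquiv k ((0 : Fin (k + 1)), (0 : Fin 2)) = ⟨0, card_pos' k⟩ :=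
            Fin.ext (by simp [parityEquiv_val])
          simp only [Fin.zero_eta, h0]
          have ha := congrArg Units.val a.2.2
          have hb := congrArg Units.val b.2.2
          rw [val_constCoeff] at ha hb
          rw [ha, hb]
        · exact congrFun hab p
      · rw [hfix _ a.2.1 _ ⟨p, by simp [parityEquiv_val, add_comm]⟩, hfix _ b.2.1 _ ⟨p, by simp [parityEquiv_val, add_comm]⟩]
    · intro d
      let c : Fin (Fintype.card (Fin (k + 1) ⊕ Fin (k + 1))) → F := fun j =>
        if ((parityEquiv k).symm j).2 = 0 then (Fin.cons 1 d : Fin (k + 1) → F) ((parityEquiv k).symm j).1 else 0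
      have hc0 : c ⟨0, card_pos' k⟩ = 1 := by
        have h0 : (parityEquiv k).symm ⟨0, card_pos' k⟩ = ((0 : Fin (k + 1)), (0 : Fin 2)) := by
          rw [Equiv.symm_apply_eq]
          exact Fin.ext (by simp [parityEquiv_val])
        simp only [c]
        rw [h0]
        simp
      have hu : IsUnit (powSum (skewNil u) c) :=
        (isUnit_powSum_iff h.skewNil_pow (card_pos' k) hv c).mpr (by rw [hc0]; exact one_ne_zero)
      let g : commutant u := ⟨hu.unit, by
        rw [mem_commutant, IsUnit.unit_spec]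
        exact (h.commute_iff _).mpr (commute_powSum (skewNil u) _ (Commute.refl _) c).symm⟩
      have hgc : coeff h g = c := coeff_unique h g (IsUnit.unit_spec hu).symm
      refine ⟨⟨g, ?_, Units.ext (by rw [val_constCoeff, hgc, hc0]; rfl)⟩, funext fun j => ?_⟩
      · refine Units.ext ?_
        rw [coe_spAdjUnit, ← powSum_coeff h g, spAdj_powSum, hgc]
        refine congrArg _ (funext fun j => ?_)
        obtain ⟨⟨p, s⟩, rfl⟩ := (parityEquiv k).surjective j
        simp only [signTwist, c, Equiv.symm_apply_apply, parityEquiv_val]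
        fin_cases s <;> simp [pow_mul]
      · show coeff h g (i j) = d j
        rw [hgc]
        simp [c, i]
  rw [Nat.card_eq_of_bijective f hbij, Nat.card_fun, Nat.card_eq_fintype_card, Nat.card_eq_fintype_card,
    Fintype.card_fin]

/-- `(s, e) ↦ s² e`, onto the norms. -/
noncomputable def normParam (h : IsRegularUnipotent u) : Fˣ × principal h →* commutant u :=
  MonoidHom.mk' (fun p => scalarC u p.1 ^ 2 * p.2) fun a b => by
    simp only [Prod.fst_mul, Prod.snd_mul, map_mul, Subgroup.coe_mul]
    rw [Commute.mul_pow (h.mul_comm _ _)]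
    rw [mul_assoc, ← mul_assoc (scalarC u b.1 ^ 2), h.mul_comm (scalarC u b.1 ^ 2) (a.2 : commutant u)]
    simp only [mul_assoc]

theorem range_adjNorm (h : IsRegularUnipotent u) : (adjNorm h).range = (normParam h).range := by
  apply le_antisymm
  · rintro _ ⟨g, rfl⟩
    refine ⟨(constCoeff h g, ⟨(scalarC u (constCoeff h g) ^ 2)⁻¹ * adjNorm h g, ?_, ?_⟩), ?_⟩
    · have hs : spAdjUnit ((adjNorm h g : commutant u) : SpGL k F) = (adjNorm h g : commutant u) := by
        rw [coe_adjNorm, spAdjUnit_mul, spAdjUnit_spAdjUnit]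
      have hs2 : spAdjUnit ((scalarC u (constCoeff h g) ^ 2)⁻¹ : commutant u).1 = ((scalarC u (constCoeff h g) ^ 2)⁻¹ : commutant u).1 := by
        rw [← map_pow, ← map_inv]
        exact spAdjUnit_scalarC u _
      rw [Subgroup.coe_mul, spAdjUnit_mul, hs, hs2]
      exact congrArg Subtype.val (h.mul_comm _ _)
    · rw [map_mul, map_inv, map_pow, constCoeff_scalarC, constCoeff_adjNorm, inv_mul_cancel]
    · show scalarC u (constCoeff h g) ^ 2 * ((scalarC u (constCoeff h g) ^ 2)⁻¹ * adjNorm h g) = _
      rw [mul_inv_cancel_left]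
  · rintro _ ⟨⟨s, e⟩, rfl⟩
    have hodd : Nat.Coprime (Nat.card (principal h)) 2 := by
      rw [card_principal h]
      refine Nat.Coprime.pow_left _ (Nat.coprime_two_right.mpr ?_)
      refine Nat.odd_iff.mpr (FiniteField.odd_card_of_char_ne_two fun hc => h.two_ne ?_)
      haveI : CharP F 2 := ringChar.of_eq hc
      exact CharTwo.two_eq_zero
    obtain ⟨w, hw⟩ := (powCoprime hodd).surjective e
    refine ⟨scalarC u s * w, ?_⟩
    have hw' : (w : commutant u) * w = (e : commutant u) := by
      rw [← Subgroup.coe_mul, ← pow_two]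
      exact congrArg Subtype.val hw
    rw [map_mul]
    refine congrArg₂ (· * ·) (Subtype.ext ?_) ((Subtype.ext ?_).trans hw')
    · rw [coe_adjNorm, spAdjUnit_scalarC, pow_two, Subgroup.coe_mul]
    · rw [coe_adjNorm, w.2.1, Subgroup.coe_mul]

theorem card_ker_normParam (h : IsRegularUnipotent u) : Nat.card (normParam h).ker = 2 := by
  classical
  have hne : (-1 : Fˣ) ≠ 1 := fun e => by
    have e2 := congrArg Units.val e
    simp only [Units.val_neg, Units.val_one] at e2
    exact h.two_ne (by linear_combination -e2)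
  rw [Nat.card_eq_two_iff]
  refine ⟨⟨1, map_one _⟩, ⟨(-1, 1), ?_⟩, fun e => hne (congrArg (fun p : (normParam h).ker => p.1.1) e).symm, ?_⟩
  · show scalarC u (-1) ^ 2 * ((1 : principal h) : commutant u) = 1
    rw [← map_pow, Subgroup.coe_one, mul_one, neg_one_sq, map_one]
  · rw [Set.eq_univ_iff_forall]
    rintro ⟨⟨s, e⟩, hse⟩
    have hse' : scalarC u s ^ 2 * (e : commutant u) = 1 := hse
    have h1 := congrArg (constCoeff h) hse'
    rw [map_mul, map_pow, constCoeff_scalarC, e.2.2, mul_one, map_one] at h1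
    have he : e = 1 := by
      rw [← map_pow, h1, map_one, one_mul] at hse'
      exact Subtype.ext hse'
    subst he
    have : (s : F) = 1 ∨ (s : F) = -1 := sq_eq_one_iff.mp (by rw [← Units.val_pow_eq_pow_val, h1, Units.val_one])
    rcases this with hs | hs
    · left; exact Subtype.ext (Prod.ext (Units.ext hs) rfl)
    · right; exact Subtype.ext (Prod.ext (Units.ext (by simpa using hs)) rfl)

theorem card_ker_adjNorm (h : IsRegularUnipotent u) :
    Nat.card (adjNorm h).ker = 2 * Fintype.card F ^ (k + 1) := by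
  have h1 := (adjNorm h).ker.card_mul_index
  rw [Subgroup.index_ker, range_adjNorm h, card_commutant h] at h1
  have h2 := (normParam h).ker.card_mul_index
  rw [Subgroup.index_ker, card_ker_normParam h, Nat.card_prod, card_principal h, Nat.card_units,
    Nat.card_eq_fintype_card (α := F)] at h2
  have hpos : 0 < (Fintype.card F - 1) * Fintype.card F ^ k :=
    Nat.mul_pos (Nat.sub_pos_of_lt Fintype.one_lt_card) (pow_pos Fintype.card_pos _)
  refine Nat.eq_of_mul_eq_mul_right hpos ?_
  calc Nat.card (adjNorm h).ker * ((Fintype.card F - 1) * Fintype.card F ^ k)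
      = 2 * (Nat.card (adjNorm h).ker * Nat.card (normParam h).range) := by rw [← h2]; ring
    _ = 2 * ((Fintype.card F - 1) * Fintype.card F ^ (2 * k + 1)) := by rw [h1]
    _ = 2 * Fintype.card F ^ (k + 1) * ((Fintype.card F - 1) * Fintype.card F ^ k) := by ring

/-- A self-adjoint element with square constant coefficient is a norm. -/
theorem mem_range_adjNorm (h : IsRegularUnipotent u) {g : commutant u} (hg : spAdjUnit (g : SpGL k F) = g)
    {s : Fˣ} (hs : constCoeff h g = s ^ 2) : g ∈ (adjNorm h).range := by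
  rw [range_adjNorm h]
  refine ⟨(s, ⟨(scalarC u s ^ 2)⁻¹ * g, ?_, by rw [map_mul, map_inv, map_pow, constCoeff_scalarC, hs, inv_mul_cancel]⟩),
    mul_inv_cancel_left _ g⟩
  rw [Subgroup.coe_mul, spAdjUnit_mul, hg, ← map_pow, ← map_inv, spAdjUnit_scalarC]
  exact congrArg Subtype.val (h.mul_comm _ _)

end CfsgLib.Classes
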